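import Mathlib
import Cfsg.Prelude.Def_Blocks
import Cfsg.Agent.Lib.Helper80.CharOps
import Cfsg.Agent.Lib.Helper80.CharKer
import Cfsg.Agent.Lib.Helper3.ExcPair

/-!
# General character-theoretic helpers for the small-degree theorem on Sylow subgroups with
uniform centralizers

Integer combinations of irreducible characters of norm one or two, positivity of the inner
product, expansion of restricted inner products along irreducible constituents.
-/

set_option autoImplicit false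

namespace Cfsg.Agent.Lib.Helper82.BL

open scoped ComplexConjugate BigOperators
open Cfsg.Agent.Lib.Helper80

section ints

variable {I : Type*} [DecidableEq I]

theorem int_sq_eq_one {z : ℤ} (h : z ^ 2 = 1) : z = 1 ∨ z = -1 := by
  have h1 : (z - 1) * (z + 1) = 0 := by ring_nf; omega
  rcases mul_eq_zero.1 h1 with h2 | h2
  · left; omega
  · right; omega

theorem int_sq_sum_one_finset (s : Finset I) (a : I → ℤ) (h : ∑ i ∈ s, a i ^ 2 = 1) :
    ∃ X ∈ s, (a X = 1 ∨ a X = -1) ∧ ∀ i ∈ s, i ≠ X → a i = 0 := by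
  have hex : ∃ X ∈ s, a X ≠ 0 := by
    by_contra hne
    push Not at hne
    rw [Finset.sum_eq_zero (fun i hi => by rw [hne i hi]; ring)] at h
    exact zero_ne_one h
  obtain ⟨X, hXs, hX⟩ := hex
  have hsplit : a X ^ 2 + ∑ i ∈ s.erase X, a i ^ 2 = 1 := by
    exact (Finset.add_sum_erase s (fun i => a i ^ 2) hXs).trans h
  have hnn : 0 ≤ ∑ i ∈ s.erase X, a i ^ 2 := Finset.sum_nonneg (fun i _ => sq_nonneg _)
  have hpos : 0 < a X ^ 2 := by positivity
  have h1 : a X ^ 2 = 1 := by omega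
  have hrest : ∑ i ∈ s.erase X, a i ^ 2 = 0 := by omega
  refine ⟨X, hXs, int_sq_eq_one h1, ?_⟩
  intro i his hi
  have := (Finset.sum_eq_zero_iff_of_nonneg (fun i _ => sq_nonneg (a i))).1 hrest i
    (Finset.mem_erase.2 ⟨hi, his⟩)
  exact pow_eq_zero_iff (two_ne_zero) |>.1 this

theorem int_sq_sum_two_finset (s : Finset I) (a : I → ℤ) (h : ∑ i ∈ s, a i ^ 2 = 2) :
    ∃ X ∈ s, ∃ Y ∈ s, X ≠ Y ∧ (a X = 1 ∨ a X = -1) ∧ (a Y = 1 ∨ a Y = -1) ∧
      ∀ i ∈ s, i ≠ X → i ≠ Y → a i = 0 := by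
  have hex : ∃ X ∈ s, a X ≠ 0 := by
    by_contra hne
    push Not at hne
    rw [Finset.sum_eq_zero (fun i hi => by rw [hne i hi]; ring)] at h
    omega
  obtain ⟨X, hXs, hX⟩ := hex
  have hsplit : a X ^ 2 + ∑ i ∈ s.erase X, a i ^ 2 = 2 := by
    exact (Finset.add_sum_erase s (fun i => a i ^ 2) hXs).trans h
  have hnn : 0 ≤ ∑ i ∈ s.erase X, a i ^ 2 := Finset.sum_nonneg (fun i _ => sq_nonneg _)
  have hpos : 0 < a X ^ 2 := by positivity
  have hne2 : a X ^ 2 ≠ 2 := by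
    intro h2
    have h3 : a X ≤ 1 := by nlinarith
    have h4 : -1 ≤ a X := by nlinarith
    interval_cases (a X) <;> omega
  have h1 : a X ^ 2 = 1 := by omega
  have hrest : ∑ i ∈ s.erase X, a i ^ 2 = 1 := by omega
  obtain ⟨Y, hYs, hY, hY0⟩ := int_sq_sum_one_finset (s.erase X) a hrest
  refine ⟨X, hXs, Y, Finset.mem_of_mem_erase hYs, (Finset.ne_of_mem_erase hYs).symm,
    int_sq_eq_one h1, hY, ?_⟩
  intro i his hiX hiY
  exact hY0 i (Finset.mem_erase.2 ⟨hiX, his⟩) hiY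

end ints

section sums

/-- A sum of natural numbers (inside `ℂ`) with a nonzero term is nonzero. -/
theorem sum_nat_ne_zero {ι : Type*} (s : Finset ι) (f : ι → ℂ)
    (hf : ∀ i ∈ s, ∃ k : ℕ, f i = k) {i : ι} (hi : i ∈ s) (hne : f i ≠ 0) :
    ∑ j ∈ s, f j ≠ 0 := by
  classical
  have hre : ∀ j ∈ s, 0 ≤ (f j).re := by
    intro j hj
    obtain ⟨k, hk⟩ := hf j hj
    rw [hk]
    simp
  intro h0
  have h1 : ∑ j ∈ s, (f j).re = 0 := by
    have := congrArg Complex.re h0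
    simpa using this
  have h2 := (Finset.sum_eq_zero_iff_of_nonneg hre).1 h1 i hi
  obtain ⟨k, hk⟩ := hf i hi
  rw [hk] at h2 hne
  simp only [Complex.natCast_re] at h2
  apply hne
  rw [show k = 0 by exact_mod_cast h2]
  simp

end sums

section gen

variable {G : Type*} [Group G] [Fintype G]

theorem classInner_sub_right (f ψ₁ ψ₂ : G → ℂ) :
    Cfsg.classInner f (ψ₁ - ψ₂) = Cfsg.classInner f ψ₁ - Cfsg.classInner f ψ₂ := by
  unfold Cfsg.classInner
  simp only [Pi.sub_apply, map_sub, mul_sub, Finset.sum_sub_distrib]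

theorem classInner_ne_zero_symm {f ψ : G → ℂ} (h : Cfsg.classInner f ψ ≠ 0) :
    Cfsg.classInner ψ f ≠ 0 := by
  rw [← classInner_conj_symm]
  intro h0
  apply h
  have := congrArg conj h0
  simpa using this

theorem classInner_nat_symm {f ψ : G → ℂ} {k : ℕ} (h : Cfsg.classInner f ψ = k) :
    Cfsg.classInner ψ f = k := by
  rw [← classInner_conj_symm, h]
  simp

theorem classInner_self_eq (f : G → ℂ) :
    Cfsg.classInner f f = (((Nat.card G : ℝ)⁻¹ * ∑ g, Complex.normSq (f g) : ℝ) : ℂ) := by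
  unfold Cfsg.classInner
  push_cast
  congr 1
  refine Finset.sum_congr rfl (fun g _ => ?_)
  rw [Complex.mul_conj]

theorem eq_zero_of_classInner_self_re_nonpos {f : G → ℂ}
    (h : (Cfsg.classInner f f).re ≤ 0) : f = 0 := by
  rw [classInner_self_eq, Complex.ofReal_re] at h
  have hpos : (0 : ℝ) < (Nat.card G : ℝ)⁻¹ := by
    have : (0 : ℝ) < Nat.card G := by exact_mod_cast Nat.card_pos
    positivity
  have hnn : 0 ≤ ∑ g, Complex.normSq (f g) := Finset.sum_nonneg (fun g _ => Complex.normSq_nonneg _)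
  have h0 : ∑ g, Complex.normSq (f g) = 0 := by
    by_contra hne
    have : 0 < ∑ g, Complex.normSq (f g) := lt_of_le_of_ne hnn (Ne.symm hne)
    have := mul_pos hpos this
    linarith
  funext g
  have := (Finset.sum_eq_zero_iff_of_nonneg (fun g _ => Complex.normSq_nonneg (f g))).1 h0 g
    (Finset.mem_univ g)
  exact Complex.normSq_eq_zero.1 this

/-- The integer coefficients of a difference of two characters. -/
theorem genChar_coeffs [Fintype (Cfsg.IrrCharacter G)] {φ₁ φ₂ : G → ℂ}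
    (h₁ : Cfsg.IsCharacter G φ₁) (h₂ : Cfsg.IsCharacter G φ₂) :
    ∃ a : Cfsg.IrrCharacter G → ℤ,
      φ₁ - φ₂ = ∑ ψ : Cfsg.IrrCharacter G, (a ψ : ℂ) • (ψ : G → ℂ) ∧
      Cfsg.classInner (φ₁ - φ₂) (φ₁ - φ₂) = ((∑ ψ, a ψ ^ 2 : ℤ) : ℂ) := by
  obtain ⟨m₁, -, e₁⟩ := character_expansion h₁
  obtain ⟨m₂, -, e₂⟩ := character_expansion h₂
  have hexp : φ₁ - φ₂ = ∑ ψ : Cfsg.IrrCharacter G, (((m₁ ψ : ℤ) - (m₂ ψ : ℤ) : ℤ) : ℂ) • (ψ : G → ℂ) := by
    conv_lhs => rw [e₁, e₂]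
    rw [← Finset.sum_sub_distrib]
    refine Finset.sum_congr rfl (fun ψ _ => ?_)
    push_cast
    rw [sub_smul]
  refine ⟨fun ψ => (m₁ ψ : ℤ) - (m₂ ψ : ℤ), hexp, ?_⟩
  rw [hexp, classInner_sum_irr]
  push_cast
  refine Finset.sum_congr rfl (fun ψ _ => ?_)
  simp only [map_sub, map_natCast]
  ring

/-- A difference of two characters of norm two vanishing at the identity is a difference of two
distinct irreducible characters. -/
theorem exists_irr_sub_irr {φ₁ φ₂ : G → ℂ}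
    (h₁ : Cfsg.IsCharacter G φ₁) (h₂ : Cfsg.IsCharacter G φ₂)
    (hnorm : Cfsg.classInner (φ₁ - φ₂) (φ₁ - φ₂) = 2) (hdeg : φ₁ 1 = φ₂ 1) :
    ∃ X X' : Cfsg.IrrCharacter G, X ≠ X' ∧ φ₁ - φ₂ = (X : G → ℂ) - (X' : G → ℂ) := by
  classical
  have : Fintype (Cfsg.IrrCharacter G) := Fintype.ofFinite _
  obtain ⟨a, hexp, hn⟩ := genChar_coeffs h₁ h₂
  rw [hnorm] at hn
  have hn' : ∑ ψ, a ψ ^ 2 = 2 := by exact_mod_cast hn.symm
  obtain ⟨X, -, Y, -, hXY, hX, hY, h0⟩ := int_sq_sum_two_finset Finset.univ a hn'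
  have hsum : φ₁ - φ₂ = (a X : ℂ) • (X : G → ℂ) + (a Y : ℂ) • (Y : G → ℂ) := by
    rw [hexp]
    refine Finset.sum_eq_add X Y hXY ?_ ?_ ?_
    · intro ψ _ hψ
      rw [h0 ψ (Finset.mem_univ _) hψ.1 hψ.2]
      simp
    · intro h; exact absurd (Finset.mem_univ _) h
    · intro h; exact absurd (Finset.mem_univ _) h
  have hval : (a X : ℂ) * (Cfsg.charDegree (X : G → ℂ) : ℂ) + (a Y : ℂ) * (Cfsg.charDegree (Y : G → ℂ) : ℂ) = 0 := by
    have := congrFun hsum 1
    simp only [Pi.sub_apply, Pi.add_apply, Pi.smul_apply, smul_eq_mul] at this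
    rw [hdeg, sub_self, char_one_eq_charDegree (isCharacter_of_isIrrCharacter X.2),
      char_one_eq_charDegree (isCharacter_of_isIrrCharacter Y.2)] at this
    exact this.symm
  have hval' : a X * (Cfsg.charDegree (X : G → ℂ) : ℤ) + a Y * (Cfsg.charDegree (Y : G → ℂ) : ℤ) = 0 := by
    exact_mod_cast hval
  have hdX : (0 : ℤ) < (Cfsg.charDegree (X : G → ℂ) : ℤ) := by exact_mod_cast charDegree_pos X.2
  have hdY : (0 : ℤ) < (Cfsg.charDegree (Y : G → ℂ) : ℤ) := by exact_mod_cast charDegree_pos Y.2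
  rcases hX with hX | hX <;> rcases hY with hY | hY
  · rw [hX, hY] at hval'; omega
  · refine ⟨X, Y, hXY, ?_⟩
    rw [hsum, hX, hY]
    funext g
    simp only [Pi.add_apply, Pi.sub_apply, Pi.smul_apply, smul_eq_mul]
    push_cast
    ring
  · refine ⟨Y, X, hXY.symm, ?_⟩
    rw [hsum, hX, hY]
    funext g
    simp only [Pi.add_apply, Pi.sub_apply, Pi.smul_apply, smul_eq_mul]
    push_cast
    ring
  · rw [hX, hY] at hval'; omega

/-- A difference of two characters of norm one with positive value at the identity is an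
irreducible character. -/
theorem isIrr_of_genChar_norm_one {φ₁ φ₂ : G → ℂ}
    (h₁ : Cfsg.IsCharacter G φ₁) (h₂ : Cfsg.IsCharacter G φ₂)
    (hnorm : Cfsg.classInner (φ₁ - φ₂) (φ₁ - φ₂) = 1) (hdeg : 0 < (φ₁ 1 - φ₂ 1).re) :
    Cfsg.IsIrrCharacter G (φ₁ - φ₂) := by
  classical
  have : Fintype (Cfsg.IrrCharacter G) := Fintype.ofFinite _
  obtain ⟨a, hexp, hn⟩ := genChar_coeffs h₁ h₂
  rw [hnorm] at hn
  have hn' : ∑ ψ, a ψ ^ 2 = 1 := by exact_mod_cast hn.symm
  obtain ⟨X, -, hX, h0⟩ := int_sq_sum_one_finset Finset.univ a hn'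
  have hsum : φ₁ - φ₂ = (a X : ℂ) • (X : G → ℂ) := by
    rw [hexp]
    refine Finset.sum_eq_single X ?_ ?_
    · intro ψ _ hψ
      rw [h0 ψ (Finset.mem_univ _) hψ]
      simp
    · intro h; exact absurd (Finset.mem_univ _) h
  rcases hX with hX | hX
  · rw [hsum, hX]
    simp only [Int.cast_one, one_smul]
    exact X.2
  · exfalso
    have := congrFun hsum 1
    simp only [Pi.sub_apply, Pi.smul_apply, smul_eq_mul] at this
    rw [this, hX, char_one_eq_charDegree (isCharacter_of_isIrrCharacter X.2)] at hdeg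
    have hdX : (0 : ℝ) < (Cfsg.charDegree (X : G → ℂ) : ℝ) := by exact_mod_cast charDegree_pos X.2
    simp at hdeg
    linarith

/-- Expansion of a restricted inner product along the irreducible characters. -/
theorem resInner_expansion [Fintype (Cfsg.IrrCharacter G)] (H : Subgroup G) [Fintype H]
    (ϑ : H → ℂ) {Φ : G → ℂ} (hΦ : Cfsg.IsClassFunction G Φ) :
    Cfsg.classInner ϑ (fun h : H => Φ h) =
      ∑ ψ : Cfsg.IrrCharacter G, Cfsg.classInner (ψ : G → ℂ) Φ *
        Cfsg.classInner ϑ (fun h : H => (ψ : G → ℂ) h) := by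
  have hfun : (fun h : H => Φ h) = ∑ ψ : Cfsg.IrrCharacter G,
      Cfsg.classInner Φ (ψ : G → ℂ) • (fun h : H => (ψ : G → ℂ) h) := by
    funext h
    rw [classFun_expansion_apply Φ hΦ]
    simp [Finset.sum_apply]
  rw [hfun, classInner_sum_right]
  refine Finset.sum_congr rfl (fun ψ _ => ?_)
  rw [classInner_smul_right, classInner_conj_symm]

/-- A constituent of the restriction comes from a constituent. -/
theorem exists_constituent_of_resInner_ne_zero (H : Subgroup G) [Fintype H]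
    (ϑ : H → ℂ) {Φ : G → ℂ} (hΦ : Cfsg.IsClassFunction G Φ)
    (h : Cfsg.classInner ϑ (fun h : H => Φ h) ≠ 0) :
    ∃ ψ : Cfsg.IrrCharacter G, Cfsg.classInner (ψ : G → ℂ) Φ ≠ 0 ∧
      Cfsg.classInner ϑ (fun h : H => (ψ : G → ℂ) h) ≠ 0 := by
  classical
  have : Fintype (Cfsg.IrrCharacter G) := Fintype.ofFinite _
  rw [resInner_expansion H ϑ hΦ] at h
  obtain ⟨ψ, -, hψ⟩ := Finset.exists_ne_zero_of_sum_ne_zero h
  exact ⟨ψ, left_ne_zero_of_mul hψ, right_ne_zero_of_mul hψ⟩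

/-- Constituents of constituents are constituents of the restriction. -/
theorem resInner_ne_zero_of_constituent (H : Subgroup G) [Fintype H]
    {ϑ : H → ℂ} (hϑ : Cfsg.IsCharacter H ϑ) {Φ : G → ℂ} (hΦ : Cfsg.IsCharacter G Φ)
    (ψ : Cfsg.IrrCharacter G) (h1 : Cfsg.classInner (ψ : G → ℂ) Φ ≠ 0)
    (h2 : Cfsg.classInner ϑ (fun h : H => (ψ : G → ℂ) h) ≠ 0) :
    Cfsg.classInner ϑ (fun h : H => Φ h) ≠ 0 := by
  classical
  have : Fintype (Cfsg.IrrCharacter G) := Fintype.ofFinite _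
  rw [resInner_expansion H ϑ (isClassFunction_of_isCharacter hΦ)]
  refine sum_nat_ne_zero Finset.univ _ ?_ (Finset.mem_univ ψ) (mul_ne_zero h1 h2)
  intro ψ' _
  obtain ⟨k₁, hk₁⟩ := classInner_nat (isCharacter_of_isIrrCharacter ψ'.2) hΦ
  obtain ⟨k₂, hk₂⟩ := classInner_nat hϑ
    (isCharacter_restrict H (isCharacter_of_isIrrCharacter ψ'.2))
  refine ⟨k₁ * k₂, ?_⟩
  rw [hk₁, hk₂]
  push_cast
  rfl

/-- A class function not constant on `{1, y}` has an irreducible constituent with the same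
property. -/
theorem exists_constituent_ne {Φ : G → ℂ} (hΦ : Cfsg.IsClassFunction G Φ) {y : G}
    (hy : Φ y ≠ Φ 1) :
    ∃ ψ : Cfsg.IrrCharacter G, Cfsg.classInner (ψ : G → ℂ) Φ ≠ 0 ∧
      (ψ : G → ℂ) y ≠ (ψ : G → ℂ) 1 := by
  classical
  have : Fintype (Cfsg.IrrCharacter G) := Fintype.ofFinite _
  by_contra hcon
  push Not at hcon
  apply hy
  rw [classFun_expansion_apply Φ hΦ y, classFun_expansion_apply Φ hΦ 1]
  refine Finset.sum_congr rfl (fun ψ _ => ?_)
  by_cases h0 : Cfsg.classInner Φ (ψ : G → ℂ) = 0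
  · rw [h0, zero_mul, zero_mul]
  · rw [hcon ψ (classInner_ne_zero_symm h0)]

/-- Multiplying both arguments by a homomorphism to the units does not change the inner
product. -/
theorem classInner_hom_mul (ω : G →* ℂˣ) (f g : G → ℂ) :
    Cfsg.classInner (fun c => ((ω c : ℂˣ) : ℂ) * f c) (fun c => ((ω c : ℂˣ) : ℂ) * g c)
      = Cfsg.classInner f g := by
  unfold Cfsg.classInner
  congr 1
  refine Finset.sum_congr rfl (fun c _ => ?_)
  rw [map_mul, Cfsg.Agent.Lib.Helper3.conj_hom_eq_inv]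
  have h : ((ω c : ℂˣ) : ℂ) * (((ω c)⁻¹ : ℂˣ) : ℂ) = 1 := by
    rw [← Units.val_mul, mul_inv_cancel, Units.val_one]
  linear_combination (f c * conj (g c)) * h

end gen

end Cfsg.Agent.Lib.Helper82.BL
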