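import Mathlib
import Cfsg.Prelude.Def_Characters
import Cfsg.Agent.Lib.Helper75.CliffordCorr2
import Cfsg.Agent.Lib.Helper75.Gallagher
import Cfsg.Agent.Lib.Helper15.LinIrr
import Cfsg.Agent.Lib.Helper81.CharCore
import Cfsg.Agent.Lib.Helper82.AbelianSylow

set_option autoImplicit false
set_option linter.unusedSectionVars false
set_option linter.style.haveILetI false

/-!
Induction of an invariant irreducible character of a normal subgroup with abelian quotient.
-/

namespace Cfsg.Agent.Lib.Helper82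

open Cfsg.Agent.Lib.Helper3 Cfsg.Agent.Lib.Helper75
open scoped ComplexConjugate

universe u

variable {T : Type u} [Group T] [Fintype T] (N : Subgroup T) [hN : N.Normal]

/-- the function induced from the trivial character of a normal subgroup -/
theorem indFun_one_normal (t : T) [Decidable (t ∈ N)] :
    Cfsg.indFun N (fun _ : N => (1 : ℂ)) t = if t ∈ N then (N.index : ℂ) else 0 := by
  unfold Cfsg.indFun
  have hN0 : (Nat.card N : ℂ) ≠ 0 := by exact_mod_cast (Nat.card_pos (α := N)).ne'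
  by_cases ht : t ∈ N
  · rw [if_pos ht]
    have : ∀ x : T, Cfsg.extendByZero N (fun _ : N => (1 : ℂ)) (x⁻¹ * t * x) = 1 := by
      intro x
      have hx : x⁻¹ * t * x ∈ N := by
        have := hN.conj_mem t ht x⁻¹
        rwa [inv_inv] at this
      rw [extendByZero_mem N _ hx]
    rw [Finset.sum_congr rfl (fun x _ => this x), Finset.sum_const, Finset.card_univ,
      nsmul_eq_mul, mul_one, ← Nat.card_eq_fintype_card, ← Subgroup.card_mul_index N]
    push_cast
    field_simp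
  · rw [if_neg ht]
    have : ∀ x : T, Cfsg.extendByZero N (fun _ : N => (1 : ℂ)) (x⁻¹ * t * x) = 0 := by
      intro x
      have hx : x⁻¹ * t * x ∉ N := by
        intro h
        apply ht
        have := hN.conj_mem _ h x
        simpa [mul_assoc] using this
      rw [extendByZero_not_mem N _ hx]
    rw [Finset.sum_congr rfl (fun x _ => this x), Finset.sum_const_zero, mul_zero]

/-- if `T ⧸ N` is abelian, `(1_N)^T` is the sum of the inflations of the irreducible characters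
of `T ⧸ N` -/
theorem indFun_one_eq_sum_of_comm [Fintype (Cfsg.IrrCharacter (T ⧸ N))]
    (hab : ∀ x y : T, x * y * x⁻¹ * y⁻¹ ∈ N) :
    Cfsg.indFun N (fun _ : N => (1 : ℂ)) =
      ∑ β : Cfsg.IrrCharacter (T ⧸ N), fun t : T => (β : T ⧸ N → ℂ) (t : T ⧸ N) := by
  classical
  haveI : Fintype (T ⧸ N) := Fintype.ofFinite _
  have hcomm : ∀ a b : T ⧸ N, a * b = b * a := by
    intro a b
    obtain ⟨x, rfl⟩ := QuotientGroup.mk_surjective a
    obtain ⟨y, rfl⟩ := QuotientGroup.mk_surjective b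
    rw [← QuotientGroup.mk_mul, ← QuotientGroup.mk_mul, QuotientGroup.eq]
    have h := hab y⁻¹ x⁻¹
    have h2 : (x * y)⁻¹ * (y * x) = y⁻¹ * x⁻¹ * y⁻¹⁻¹ * x⁻¹⁻¹ := by group
    rw [h2]
    exact h
  funext t
  rw [indFun_one_normal N t, Finset.sum_apply]
  have h1 := Helper81.irr_regular (G := T ⧸ N) (t : T ⧸ N)
  have h2 : ∀ β : Cfsg.IrrCharacter (T ⧸ N), (β : T ⧸ N → ℂ) 1 = 1 :=
    fun β => irr_one_eq_one_of_comm hcomm β.2
  simp only [h2, one_mul] at h1
  rw [h1]
  by_cases ht : t ∈ N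
  · rw [if_pos ht, if_pos ((QuotientGroup.eq_one_iff t).2 ht)]
    rfl
  · rw [if_neg ht, if_neg (fun h => ht ((QuotientGroup.eq_one_iff t).1 h))]

/-- Let `θ` be a `T`-invariant irreducible character of the normal subgroup `N` with `T ⧸ N`
abelian.  Then `θ^T = e (ψ₁ + ... + ψ_t)` with distinct irreducible `ψ_i` restricting to `e θ`
and `e² t = |T : N|`. -/
theorem ind_invariant_of_comm {θ : N → ℂ} (hθ : Cfsg.IsIrrCharacter N θ)
    (hinv : ∀ t : T, conjChar N θ t = θ) (hab : ∀ x y : T, x * y * x⁻¹ * y⁻¹ ∈ N) :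
    ∃ (e : ℕ) (C : Finset (T → ℂ)), 0 < e ∧
      (∀ ψ ∈ C, Cfsg.IsIrrCharacter T ψ ∧ (fun n : N => ψ n) = (e : ℂ) • θ) ∧
      e ^ 2 * C.card = N.index ∧ Cfsg.indFun N θ = (e : ℂ) • ∑ ψ ∈ C, ψ := by
  classical
  haveI : Fintype N := Fintype.ofFinite _
  haveI : Fintype (Cfsg.IrrCharacter T) := Fintype.ofFinite _
  haveI : Fintype (T ⧸ N) := Fintype.ofFinite _
  haveI : Fintype (Cfsg.IrrCharacter (T ⧸ N)) := Fintype.ofFinite _
  have hθc := isCharacter_of_irr hθ
  have hθ10 : θ 1 ≠ 0 := Helper80.char_one_ne_zero hθ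
  have hidx0 : (N.index : ℂ) ≠ 0 := by
    exact_mod_cast (Subgroup.index_ne_zero_of_finite (H := N))
  -- a constituent of the induced character
  have hI : Cfsg.IsCharacter T (Cfsg.indFun N θ) := isCharacter_indFun N hθc
  obtain ⟨m, hm, hsum⟩ := char_eq_sum_irr hI
  have hex : ∃ ψ : Cfsg.IrrCharacter T, m ψ ≠ 0 := by
    by_contra hcon
    push Not at hcon
    have h0 : Cfsg.indFun N θ 1 = 0 := by
      rw [hsum]
      simp [hcon]
    rw [indFun_one] at h0
    exact (mul_ne_zero hidx0 hθ10) h0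
  obtain ⟨ψ₀, hψ₀m⟩ := hex
  have hψ₀c := isCharacter_of_irr ψ₀.2
  have hψ₀cf := isClassFunction_of_isCharacter hψ₀c
  obtain ⟨e, he⟩ := classInner_char_nat (isCharacter_res N hψ₀c) hθc
  have hne : Cfsg.classInner (fun n : N => (ψ₀ : T → ℂ) n) θ ≠ 0 := by
    intro h0
    have h1 : Cfsg.classInner (Cfsg.indFun N θ) (ψ₀ : T → ℂ) = 0 := by
      rw [frobenius_reciprocity N θ hψ₀cf, classInner_conj_symm, h0, map_zero]
    rw [hm ψ₀] at h1
    exact hψ₀m (by exact_mod_cast h1)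
  have he0 : e ≠ 0 := by
    intro h0
    apply hne
    rw [he, h0]
    simp
  have heC : (e : ℂ) ≠ 0 := by exact_mod_cast he0
  have hψ₀N : (fun n : N => (ψ₀ : T → ℂ) n) = (e : ℂ) • θ := by
    rw [← he]
    exact res_eq_smul_of_invariant N ψ₀.2 hθ hne hinv
  -- the twists
  let F : Cfsg.IrrCharacter (T ⧸ N) → (T → ℂ) :=
    fun β => (fun t : T => (β : T ⧸ N → ℂ) (t : T ⧸ N)) * (ψ₀ : T → ℂ)
  have hcomm : ∀ a b : T ⧸ N, a * b = b * a := by
    intro a b
    obtain ⟨x, rfl⟩ := QuotientGroup.mk_surjective a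
    obtain ⟨y, rfl⟩ := QuotientGroup.mk_surjective b
    rw [← QuotientGroup.mk_mul, ← QuotientGroup.mk_mul, QuotientGroup.eq]
    have h := hab y⁻¹ x⁻¹
    have h2 : (x * y)⁻¹ * (y * x) = y⁻¹ * x⁻¹ * y⁻¹⁻¹ * x⁻¹⁻¹ := by group
    rw [h2]
    exact h
  have hβ1 : ∀ β : Cfsg.IrrCharacter (T ⧸ N), (β : T ⧸ N → ℂ) 1 = 1 :=
    fun β => irr_one_eq_one_of_comm hcomm β.2
  have hFirr : ∀ β, Cfsg.IsIrrCharacter T (F β) := by
    intro β
    have h1 : Cfsg.IsIrrCharacter T (fun t : T => (β : T ⧸ N → ℂ) (t : T ⧸ N)) :=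
      Helper80.isIrrCharacter_inflate N β.2
    exact Helper15.isIrrCharacter_lin_mul (isCharacter_of_irr h1) (hβ1 β) ψ₀.2
  have hFN : ∀ β, (fun n : N => F β n) = (e : ℂ) • θ := by
    intro β
    rw [← hψ₀N]
    funext n
    show (β : T ⧸ N → ℂ) ((n : T) : T ⧸ N) * (ψ₀ : T → ℂ) n = (ψ₀ : T → ℂ) n
    rw [(QuotientGroup.eq_one_iff (n : T)).2 n.2, hβ1 β, one_mul]
  -- the key identity
  have hkey : (e : ℂ) • Cfsg.indFun N θ = ∑ β : Cfsg.IrrCharacter (T ⧸ N), F β := by
    rw [← Helper80.indFun_smul, ← hψ₀N]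
    have h1 := indFun_mul_res N hψ₀cf (fun _ : N => (1 : ℂ))
    simp only [mul_one] at h1
    rw [h1, indFun_one_eq_sum_of_comm N hab, Finset.mul_sum]
    refine Finset.sum_congr rfl (fun β _ => ?_)
    exact mul_comm _ _
  set C : Finset (T → ℂ) := Finset.univ.image F with hC
  have hCirr : ∀ ψ ∈ C, Cfsg.IsIrrCharacter T ψ ∧ (fun n : N => ψ n) = (e : ℂ) • θ := by
    intro ψ hψ
    obtain ⟨β, -, rfl⟩ := Finset.mem_image.1 hψ
    exact ⟨hFirr β, hFN β⟩
  have hkey2 : (e : ℂ) • Cfsg.indFun N θ =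
      ∑ ψ ∈ C, ((Finset.univ.filter (fun β => F β = ψ)).card : ℂ) • ψ := by
    rw [hkey, hC]
    have := Finset.sum_comp (s := (Finset.univ : Finset (Cfsg.IrrCharacter (T ⧸ N))))
      (fun ψ : T → ℂ => ψ) F
    rw [this]
    refine Finset.sum_congr rfl (fun ψ _ => ?_)
    rw [Nat.cast_smul_eq_nsmul]
  -- multiplicities
  have hmult : ∀ ψ ∈ C, ((Finset.univ.filter (fun β => F β = ψ)).card : ℂ) = (e : ℂ) ^ 2 := by
    intro ψ hψ
    obtain ⟨hψirr, hψN⟩ := hCirr ψ hψ
    have hψcf := isClassFunction_of_isCharacter (isCharacter_of_irr hψirr)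
    have h1 : Cfsg.classInner ((e : ℂ) • Cfsg.indFun N θ) ψ = (e : ℂ) ^ 2 := by
      rw [classInner_smul_left, frobenius_reciprocity N θ hψcf, hψN, classInner_conj_symm,
        classInner_smul_left, Helper80.classInner_self hθ]
      simp
      ring
    rw [hkey2, classInner_sum_left] at h1
    rw [← h1]
    rw [Finset.sum_eq_single ψ]
    · rw [classInner_smul_left, Helper80.classInner_self hψirr, mul_one]
    · intro ψ' hψ' hne'
      rw [classInner_smul_left, classInner_irr_ne (hCirr ψ' hψ').1 hψirr hne', mul_zero]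
    · intro h
      exact absurd hψ h
  have hfinal : Cfsg.indFun N θ = (e : ℂ) • ∑ ψ ∈ C, ψ := by
    have h1 : (e : ℂ) • Cfsg.indFun N θ = (e : ℂ) • ((e : ℂ) • ∑ ψ ∈ C, ψ) := by
      rw [hkey2, Finset.smul_sum, Finset.smul_sum]
      refine Finset.sum_congr rfl (fun ψ hψ => ?_)
      rw [hmult ψ hψ, smul_smul, sq]
    exact smul_right_injective _ heC h1
  refine ⟨e, C, Nat.pos_of_ne_zero he0, hCirr, ?_, hfinal⟩
  -- degrees
  have h1 := congrFun hfinal 1
  rw [indFun_one] at h1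
  simp only [Pi.smul_apply, Finset.sum_apply, smul_eq_mul] at h1
  have h2 : ∀ ψ ∈ C, ψ 1 = (e : ℂ) * θ 1 := by
    intro ψ hψ
    have := congrFun (hCirr ψ hψ).2 1
    simpa using this
  rw [Finset.sum_congr rfl h2, Finset.sum_const, nsmul_eq_mul] at h1
  have h3 : (N.index : ℂ) * θ 1 = ((e ^ 2 * C.card : ℕ) : ℂ) * θ 1 := by
    rw [h1]
    push_cast
    ring
  have h4 := mul_right_cancel₀ hθ10 h3
  exact_mod_cast h4.symm

end Cfsg.Agent.Lib.Helper82
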