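import Mathlib
import Cfsg.Agent.Lib.Helper80.Eigen

set_option autoImplicit false

namespace Cfsg.Agent.Lib.Helper82

open Cfsg.Agent.Lib.Helper80

/-- Conjugation of a function on a normal subgroup `V` by an element `x` of the group:
`(conjFun V x θ) u = θ (x⁻¹ u x)`. -/
def conjFun {X : Type*} [Group X] (V : Subgroup X) [hV : V.Normal] (x : X) (θ : ↥V → ℂ) : ↥V → ℂ :=
  fun u => θ ⟨x⁻¹ * u * x, by
    have := hV.conj_mem (u : X) u.2 x⁻¹
    rwa [inv_inv] at this⟩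

theorem conjFun_apply {X : Type*} [Group X] (V : Subgroup X) [hV : V.Normal] (x : X) (θ : ↥V → ℂ)
    (u : ↥V) (h : x⁻¹ * u * x ∈ V) : conjFun V x θ u = θ ⟨x⁻¹ * u * x, h⟩ := rfl

theorem conjFun_one {X : Type*} [Group X] (V : Subgroup X) [hV : V.Normal] (θ : ↥V → ℂ) :
    conjFun V 1 θ = θ := by
  funext u
  unfold conjFun
  congr 1
  apply Subtype.ext
  simp

theorem conjFun_mul {X : Type*} [Group X] (V : Subgroup X) [hV : V.Normal] (x y : X) (θ : ↥V → ℂ) :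
    conjFun V (x * y) θ = conjFun V x (conjFun V y θ) := by
  funext u
  unfold conjFun
  congr 1
  apply Subtype.ext
  simp only [mul_inv_rev]
  group

/-- Orthogonality of multiplicative functions on a finite group. -/
theorem sum_mul_inv_multiplicative {A : Type*} [Group A] [Fintype A] (ψ₁ ψ₂ : A → ℂ)
    (h1 : ∀ a b, ψ₁ (a * b) = ψ₁ a * ψ₁ b) (h2 : ∀ a b, ψ₂ (a * b) = ψ₂ a * ψ₂ b)
    (h21 : ψ₂ 1 = 1) [Decidable (ψ₁ = ψ₂)] :
    ∑ a : A, ψ₁ a * ψ₂ a⁻¹ = if ψ₁ = ψ₂ then (Fintype.card A : ℂ) else 0 := by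
  have hinv : ∀ a, ψ₂ a * ψ₂ a⁻¹ = 1 := by
    intro a; rw [← h2, mul_inv_cancel, h21]
  split_ifs with h
  · subst h
    simp [hinv]
  · obtain ⟨a₀, ha₀⟩ : ∃ a₀, ψ₁ a₀ ≠ ψ₂ a₀ := by
      by_contra hcon
      apply h
      funext a
      by_contra ha
      exact hcon ⟨a, ha⟩
    set S := ∑ a : A, ψ₁ a * ψ₂ a⁻¹ with hS
    have hre : S = ψ₁ a₀ * ψ₂ a₀⁻¹ * S := by
      rw [hS, Finset.mul_sum]
      rw [← Equiv.sum_comp (Equiv.mulLeft a₀) (fun a => ψ₁ a * ψ₂ a⁻¹)]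
      refine Finset.sum_congr rfl (fun a _ => ?_)
      simp only [Equiv.coe_mulLeft, mul_inv_rev, h1, h2]
      ring
    have hne : ψ₁ a₀ * ψ₂ a₀⁻¹ ≠ 1 := by
      intro h'
      apply ha₀
      have := hinv a₀
      calc ψ₁ a₀ = ψ₁ a₀ * (ψ₂ a₀⁻¹ * ψ₂ a₀) := by rw [mul_comm (ψ₂ a₀⁻¹), this, mul_one]
        _ = ψ₁ a₀ * ψ₂ a₀⁻¹ * ψ₂ a₀ := by ring
        _ = ψ₂ a₀ := by rw [h', one_mul]
    have : (1 - ψ₁ a₀ * ψ₂ a₀⁻¹) * S = 0 := by
      rw [sub_mul, one_mul, ← hre, sub_self]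
    rcases mul_eq_zero.1 this with h' | h'
    · exact absurd (sub_eq_zero.1 h').symm hne
    · exact h'

section Rep

variable {X : Type*} [Group X] [Finite X] {W : Type*} [AddCommGroup W] [Module ℂ W]
  [FiniteDimensional ℂ W]

/-- A commuting family of operators `ρ u`, `u ∈ V` (`V` abelian), has a common eigenvector. -/
theorem exists_common_eigenvector [Nontrivial W] (ρ : Representation ℂ X W) (V : Subgroup X)
    (hab : ∀ a ∈ V, ∀ b ∈ V, a * b = b * a) :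
    ∃ (w : W) (θ : ↥V → ℂ), w ≠ 0 ∧ ∀ u : ↥V, ρ (u : X) w = θ u • w := by
  let f : ↥V → Module.End ℂ W := fun u => ρ (u : X)
  have hcomm : Pairwise fun i j => Commute (f i) (f j) := by
    intro i j _
    show ρ (i : X) * ρ (j : X) = ρ (j : X) * ρ (i : X)
    rw [← map_mul, ← map_mul, hab i i.2 j j.2]
  have hss : ∀ u : ↥V, (f u).IsSemisimple := fun u =>
    isSemisimple_of_pow_eq_one (ρ (u : X)) (orderOf_pos (u : X))
      (by rw [← map_pow, pow_orderOf_eq_one, map_one])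
  have htop := Module.End.iSup_iInf_maxGenEigenspace_eq_top_of_iSup_maxGenEigenspace_eq_top_of_commute
    f hcomm (fun u => Module.End.iSup_maxGenEigenspace_eq_top (f u))
  obtain ⟨θ, hθ⟩ : ∃ θ : ↥V → ℂ, (⨅ u, (f u).maxGenEigenspace (θ u)) ≠ ⊥ := by
    by_contra h
    have h' : ∀ θ : ↥V → ℂ, (⨅ u, (f u).maxGenEigenspace (θ u)) = ⊥ := by
      intro θ
      by_contra h''
      exact h ⟨θ, h''⟩
    simp only [h', iSup_bot] at htop
    exact bot_ne_top htop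
  obtain ⟨w, hw, hw0⟩ := (Submodule.ne_bot_iff _).1 hθ
  refine ⟨w, θ, hw0, fun u => ?_⟩
  have h1 : w ∈ (f u).maxGenEigenspace (θ u) := (Submodule.mem_iInf _).1 hw u
  rw [(hss u).isFinitelySemisimple.maxGenEigenspace_eq_eigenspace] at h1
  exact Module.End.mem_eigenspace_iff.1 h1

end Rep

end Cfsg.Agent.Lib.Helper82
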