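import Mathlib
import Cfsg.Prelude.Def_Blocks
import Cfsg.Agent.Lib.Helper80.CharOps
import Cfsg.Agent.Lib.Helper80.CharKer
import Cfsg.Agent.Lib.Helper3.ExcPair
import Cfsg.Agent.Lib.Helper39.CharGen

/-!
# Central Sylow subgroups: extension of linear characters and weights

For a finite group `Γ` with a central Sylow `p`-subgroup (given as the range of an injective
homomorphism `ι : A →* Γ`), every homomorphism `A →* ℂˣ` extends to `Γ`, trivially on the
`p`-regular elements, compatibly with products.  Irreducible characters of `Γ` have a weight.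
-/

set_option autoImplicit false

namespace Cfsg.Agent.Lib.Helper82.BL

open scoped ComplexConjugate BigOperators
open Cfsg.Agent.Lib.Helper80

theorem exists_hat (p : ℕ) [Fact p.Prime] {Γ : Type*} [Group Γ] [Finite Γ] {A : Type*} [Group A]
    (ι : A →* Γ) (hinj : Function.Injective ι) (hcent : ∀ a c, ι a * c = c * ι a)
    (Q : Sylow p Γ) (hQ : (Q : Subgroup Γ) = ι.range) :
    ∃ hat : (A →* ℂˣ) →* (Γ →* ℂˣ), (∀ ω a, hat ω (ι a) = ω a) ∧
      (∀ ω c, ¬ p ∣ orderOf c → hat ω c = 1) := by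
  have hP : Subgroup.normalizer ((Q : Subgroup Γ) : Set Γ) ≤
      Subgroup.centralizer ((Q : Subgroup Γ) : Set Γ) := by
    intro g _
    rw [Subgroup.mem_centralizer_iff]
    intro h hh
    have hh' : h ∈ (Q : Subgroup Γ) := hh
    rw [hQ] at hh'
    obtain ⟨a, rfl⟩ := hh'
    exact hcent a g
  let τ : Γ →* ↥(Q : Subgroup Γ) := MonoidHom.transferSylow Q hP
  let e : A ≃* ↥(Q : Subgroup Γ) :=
    (MonoidHom.ofInjective hinj).trans (MulEquiv.subgroupCongr hQ.symm)
  have he : ∀ a : A, ((e a : ↥(Q : Subgroup Γ)) : Γ) = ι a := fun a => rfl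
  let σ : Γ →* A := e.symm.toMonoidHom.comp τ
  set m := (Q : Subgroup Γ).index with hm
  have hσ : ∀ a : A, σ (ι a) = a ^ m := by
    intro a
    show e.symm (τ (ι a)) = a ^ m
    rw [MulEquiv.symm_apply_eq]
    have hmem : ι a ∈ Q := by
      show ι a ∈ (Q : Subgroup Γ)
      rw [hQ]; exact ⟨a, rfl⟩
    apply Subtype.ext
    rw [he, map_pow]
    show ((MonoidHom.transferSylow Q hP (ι a) : ↥(Q : Subgroup Γ)) : Γ) = ι a ^ m
    rw [MonoidHom.transferSylow_eq_pow Q hP (ι a) hmem]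
  haveI : Finite A := Finite.of_injective ι hinj
  have hcardA : ∃ k, Nat.card A = p ^ k := by
    have h1 : Nat.card A = Nat.card ↥(Q : Subgroup Γ) := Nat.card_congr e.toEquiv
    rw [h1]
    exact (IsPGroup.iff_card).1 Q.isPGroup'
  obtain ⟨k, hk⟩ := hcardA
  have hcop : Nat.Coprime m (Nat.card A) := by
    rw [hk]
    apply Nat.Coprime.pow_right
    rw [Nat.coprime_comm]
    exact (Nat.Prime.coprime_iff_not_dvd (Fact.out : p.Prime)).2 (Sylow.not_dvd_index Q)
  obtain ⟨j, hj⟩ : ∃ j, ∀ a : A, a ^ (m * j) = a := by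
    by_cases h1 : Nat.card A = 1
    · refine ⟨0, fun a => ?_⟩
      haveI : Subsingleton A := (Nat.card_eq_one_iff_unique.1 h1).1
      exact Subsingleton.elim _ _
    · have h2 : 1 < Nat.card A := by
        have := Nat.card_pos (α := A)
        omega
      obtain ⟨j, -, hj⟩ := Nat.exists_mul_mod_eq_one_of_coprime hcop h2
      refine ⟨j, fun a => ?_⟩
      rw [← pow_mod_natCard, hj, pow_one]
  refine ⟨(powMonoidHom j).comp (MonoidHom.compHom' σ), ?_, ?_⟩
  · intro ω a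
    show ((ω.comp σ) ^ j) (ι a) = ω a
    rw [MonoidHom.pow_apply, MonoidHom.comp_apply, hσ, ← map_pow, ← pow_mul, hj]
  · intro ω c hc
    show ((ω.comp σ) ^ j) c = 1
    have h1 : σ c = 1 := by
      rw [← orderOf_eq_one_iff]
      have h2 : orderOf (σ c) ∣ orderOf c := orderOf_map_dvd σ c
      have h3 : orderOf (σ c) ∣ p ^ k := hk ▸ orderOf_dvd_natCard (σ c)
      obtain ⟨i, -, hi⟩ := (Nat.dvd_prime_pow (Fact.out : p.Prime)).1 h3
      rcases Nat.eq_zero_or_pos i with h0 | hpos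
      · rw [hi, h0, pow_zero]
      · exfalso
        apply hc
        exact dvd_trans (hi ▸ dvd_pow_self p hpos.ne') h2
    rw [MonoidHom.pow_apply, MonoidHom.comp_apply, h1, map_one, one_pow]

/-- An irreducible character has a weight with respect to a central subgroup. -/
theorem exists_weight {Γ : Type*} [Group Γ] [Finite Γ] {A : Type*} [Group A] (ι : A →* Γ)
    (hcent : ∀ a c, ι a * c = c * ι a) {θ : Γ → ℂ} (hθ : Cfsg.IsIrrCharacter Γ θ) :
    ∃ κ : A →* ℂˣ, ∀ a c, θ (ι a * c) = ((κ a : ℂˣ) : ℂ) * θ c := by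
  have h1 : θ 1 ≠ 0 := char_one_ne_zero hθ
  obtain ⟨n, ρ, hirr, rfl⟩ := hθ
  have := hirr
  choose ω _ hω using fun a => Cfsg.Agent.Lib.Helper39.central_twist ρ (ι a) (hcent a)
  have hmul : ∀ a b, ω (a * b) = ω a * ω b := by
    intro a b
    have e1 := hω (a * b) 1
    have e2 := hω a (ι b * 1)
    have e3 := hω b 1
    rw [map_mul, mul_assoc, e2, e3] at e1
    have : (ω (a * b) - ω a * ω b) * ρ.character 1 = 0 := by linear_combination -e1
    rcases mul_eq_zero.1 this with h | h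
    · exact sub_eq_zero.1 h
    · exact absurd h h1
  have hone : ω 1 = 1 := by
    have e1 := hω 1 1
    rw [map_one, mul_one] at e1
    have : (ω 1 - 1) * ρ.character 1 = 0 := by linear_combination -e1
    rcases mul_eq_zero.1 this with h | h
    · exact sub_eq_zero.1 h
    · exact absurd h h1
  refine ⟨MonoidHom.toHomUnits { toFun := ω, map_one' := hone, map_mul' := hmul }, ?_⟩
  intro a c
  rw [MonoidHom.coe_toHomUnits]
  exact hω a c

section wt

variable {Γ : Type*} [Group Γ] {A : Type*} [Group A] (ι : A →* Γ)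

/-- `f` has weight `κ` with respect to `ι`. -/
def HasWt (f : Γ → ℂ) (κ : A →* ℂˣ) : Prop :=
  ∀ a c, f (ι a * c) = ((κ a : ℂˣ) : ℂ) * f c

variable {ι}

theorem HasWt.mul {f g : Γ → ℂ} {κ μ : A →* ℂˣ} (hf : HasWt ι f κ) (hg : HasWt ι g μ) :
    HasWt ι (fun c => f c * g c) (κ * μ) := by
  intro a c
  show f (ι a * c) * g (ι a * c) = (((κ * μ) a : ℂˣ) : ℂ) * (f c * g c)
  rw [hf a c, hg a c, MonoidHom.mul_apply, Units.val_mul]
  ring

theorem HasWt.conj [Finite A] {f : Γ → ℂ} {κ : A →* ℂˣ} (hf : HasWt ι f κ) :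
    HasWt ι (fun c => conj (f c)) κ⁻¹ := by
  intro a c
  show conj (f (ι a * c)) = (((κ⁻¹) a : ℂˣ) : ℂ) * conj (f c)
  rw [hf a c, map_mul, Cfsg.Agent.Lib.Helper3.conj_hom_eq_inv]
  rfl

theorem hasWt_hom (ω' : Γ →* ℂˣ) : HasWt ι (fun c => ((ω' c : ℂˣ) : ℂ)) (ω'.comp ι) := by
  intro a c
  show ((ω' (ι a * c) : ℂˣ) : ℂ) = ((ω' (ι a) : ℂˣ) : ℂ) * ((ω' c : ℂˣ) : ℂ)
  rw [map_mul, Units.val_mul]

theorem HasWt.eq {f : Γ → ℂ} {κ μ : A →* ℂˣ} (hf : HasWt ι f κ) (hg : HasWt ι f μ)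
    (h1 : f 1 ≠ 0) : κ = μ := by
  ext a
  have e1 := hf a 1
  have e2 := hg a 1
  rw [e1] at e2
  exact mul_right_cancel₀ h1 e2

theorem classInner_eq_zero_of_hasWt [Fintype Γ] [Finite A] {f g : Γ → ℂ} {κ μ : A →* ℂˣ}
    (hf : HasWt ι f κ) (hg : HasWt ι g μ) (hne : κ ≠ μ) : Cfsg.classInner f g = 0 := by
  have hex : ∃ a, κ a ≠ μ a := by
    by_contra h
    push Not at h
    exact hne (MonoidHom.ext h)
  obtain ⟨a, ha⟩ := hex
  unfold Cfsg.classInner
  have hsum : ∑ c : Γ, f c * conj (g c)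
      = (((κ a : ℂˣ) : ℂ) * (((μ a)⁻¹ : ℂˣ) : ℂ)) * ∑ c : Γ, f c * conj (g c) := by
    rw [Finset.mul_sum]
    rw [← Equiv.sum_comp (Equiv.mulLeft (ι a)) (fun c => f c * conj (g c))]
    refine Finset.sum_congr rfl (fun c _ => ?_)
    simp only [Equiv.coe_mulLeft]
    rw [hf a c, hg a c, map_mul, Cfsg.Agent.Lib.Helper3.conj_hom_eq_inv]
    ring
  have hne1 : ((κ a : ℂˣ) : ℂ) * (((μ a)⁻¹ : ℂˣ) : ℂ) ≠ 1 := by
    intro h
    apply ha
    rw [← Units.val_mul] at h
    have h2 : κ a * (μ a)⁻¹ = 1 := Units.ext (by simpa using h)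
    exact mul_inv_eq_one.1 h2
  have h0 : ∑ c : Γ, f c * conj (g c) = 0 := by
    have : (1 - ((κ a : ℂˣ) : ℂ) * (((μ a)⁻¹ : ℂˣ) : ℂ)) * ∑ c : Γ, f c * conj (g c) = 0 := by
      linear_combination hsum
    rcases mul_eq_zero.1 this with h | h
    · exact absurd (sub_eq_zero.1 h).symm hne1
    · exact h
  rw [h0, mul_zero]

end wt

end Cfsg.Agent.Lib.Helper82.BL
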