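import Mathlib
import Cfsg.Prelude.Def_Blocks
import Cfsg.Agent.Lib.Helper82.BLGen

/-!
# The combinatorics of a family of exceptional differences

An abstract family of class functions `A ν μ` with prescribed inner products, each being a
difference of two irreducible characters when `ν` and `μ` are unrelated.
-/

set_option autoImplicit false

namespace Cfsg.Agent.Lib.Helper82.BL

open scoped ComplexConjugate BigOperators
open Cfsg.Agent.Lib.Helper80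

section dl

variable {G : Type*} [Group G]

open Classical in
/-- The Kronecker symbol on irreducible characters. -/
noncomputable def dl (X Y : Cfsg.IrrCharacter G) : ℤ := if X = Y then 1 else 0

theorem dl_self (X : Cfsg.IrrCharacter G) : dl X X = 1 := by
  unfold dl; simp

theorem dl_of_ne {X Y : Cfsg.IrrCharacter G} (h : X ≠ Y) : dl X Y = 0 := by
  unfold dl; simp [h]

theorem dl_of_ne' {X Y : Cfsg.IrrCharacter G} (h : X ≠ Y) : dl Y X = 0 := dl_of_ne h.symm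

theorem dl_nonneg (X Y : Cfsg.IrrCharacter G) : 0 ≤ dl X Y := by
  unfold dl; split_ifs <;> simp

theorem dl_le_one (X Y : Cfsg.IrrCharacter G) : dl X Y ≤ 1 := by
  unfold dl; split_ifs <;> simp

theorem eq_of_dl_eq_one {X Y : Cfsg.IrrCharacter G} (h : dl X Y = 1) : X = Y := by
  by_contra hne
  rw [dl_of_ne hne] at h
  exact zero_ne_one h

theorem ne_of_dl_eq_zero {X Y : Cfsg.IrrCharacter G} (h : dl X Y = 0) : X ≠ Y := by
  intro he
  rw [he, dl_self] at h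
  exact one_ne_zero h

theorem dl_comm (X Y : Cfsg.IrrCharacter G) : dl X Y = dl Y X := by
  by_cases h : X = Y
  · rw [h]
  · rw [dl_of_ne h, dl_of_ne' h]

variable [Fintype G]

theorem inner_irr_int (X Y : Cfsg.IrrCharacter G) :
    Cfsg.classInner (X : G → ℂ) (Y : G → ℂ) = ((dl X Y : ℤ) : ℂ) := by
  classical
  rw [classInner_irr]
  unfold dl
  split_ifs <;> simp

theorem inner_dd (X X' Y Y' : Cfsg.IrrCharacter G) :
    Cfsg.classInner ((X : G → ℂ) - (X' : G → ℂ)) ((Y : G → ℂ) - (Y' : G → ℂ))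
      = ((dl X Y - dl X Y' - dl X' Y + dl X' Y' : ℤ) : ℂ) := by
  rw [classInner_sub_left, classInner_sub_right, classInner_sub_right, inner_irr_int,
    inner_irr_int, inner_irr_int, inner_irr_int]
  push_cast
  ring

theorem inner_d_irr (X X' ψ : Cfsg.IrrCharacter G) :
    Cfsg.classInner ((X : G → ℂ) - (X' : G → ℂ)) (ψ : G → ℂ)
      = ((dl X ψ - dl X' ψ : ℤ) : ℂ) := by
  rw [classInner_sub_left, inner_irr_int, inner_irr_int]
  push_cast
  ring

end dl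

/-- The abstract lemma on families of exceptional differences. -/
theorem comb {G : Type*} [Group G] [Fintype G] {L : Type*}
    (δ : L → L → ℤ) (hδ : ∀ a b, δ a b = 0 ∨ δ a b = 1) (hδrefl : ∀ a, δ a a = 1)
    (A : L → L → G → ℂ) (r : L → Cfsg.IrrCharacter G → ℕ)
    (hA : ∀ ν μ, δ ν μ = 0 → ∃ X X' : Cfsg.IrrCharacter G, X ≠ X' ∧
      A ν μ = (X : G → ℂ) - (X' : G → ℂ))
    (hAA : ∀ ν μ ν' μ', Cfsg.classInner (A ν μ) (A ν' μ')
      = ((δ ν ν' - δ ν μ' - δ μ ν' + δ μ μ' : ℤ) : ℂ))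
    (hAr : ∀ ν μ (ψ : Cfsg.IrrCharacter G), Cfsg.classInner (A ν μ) (ψ : G → ℂ)
      = (((r ν ψ : ℤ) - (r μ ψ : ℤ) : ℤ) : ℂ))
    (hrel : ∀ ν κ (ψ : Cfsg.IrrCharacter G), δ ν κ = 1 → r ν ψ = r κ ψ)
    (η : Cfsg.IrrCharacter G) (ν₁ ν₂ μ μ' : L)
    (h1 : r ν₁ η ≠ 0) (h2 : r ν₂ η = 0) (hμ : r μ η = 0) (hμ' : r μ' η = 0)
    (hμμ' : δ μ μ' = 0) :
    ∃ η' : Cfsg.IrrCharacter G, (η' : G → ℂ) = (η : G → ℂ) - A ν₁ ν₂ ∧
      ∀ ξ : Cfsg.IrrCharacter G, ξ ≠ η' → r ν₂ ξ ≠ 0 → ∀ κ, r κ ξ ≠ 0 := by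
  classical
  -- integer forms of the hypotheses
  have eAr : ∀ (ν μ : L) (X X' ψ : Cfsg.IrrCharacter G),
      A ν μ = (X : G → ℂ) - (X' : G → ℂ) → dl X ψ - dl X' ψ = (r ν ψ : ℤ) - (r μ ψ : ℤ) := by
    intro ν μ X X' ψ hA'
    have := hAr ν μ ψ
    rw [hA', inner_d_irr] at this
    exact_mod_cast this
  have eAA : ∀ (ν μ ν' μ' : L) (X X' Y Y' : Cfsg.IrrCharacter G),
      A ν μ = (X : G → ℂ) - (X' : G → ℂ) → A ν' μ' = (Y : G → ℂ) - (Y' : G → ℂ) →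
      dl X Y - dl X Y' - dl X' Y + dl X' Y' = δ ν ν' - δ ν μ' - δ μ ν' + δ μ μ' := by
    intro ν μ ν' μ' X X' Y Y' hA1 hA2
    have := hAA ν μ ν' μ'
    rw [hA1, hA2, inner_dd] at this
    exact_mod_cast this
  -- a relation forces equal multiplicities
  have hδ0 : ∀ a b (ψ : Cfsg.IrrCharacter G), r a ψ ≠ r b ψ → δ a b = 0 := by
    intro a b ψ hne
    rcases hδ a b with h | h
    · exact h
    · exact absurd (hrel a b ψ h) hne
  have hδ12 : δ ν₁ ν₂ = 0 := hδ0 ν₁ ν₂ η (by rw [h2]; exact h1)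
  obtain ⟨X, X', hXX', hA12⟩ := hA ν₁ ν₂ hδ12
  have e0 := eAr ν₁ ν₂ X X' η hA12
  have hXη : X = η := by
    apply eq_of_dl_eq_one
    have := dl_nonneg X' η
    have := dl_le_one X η
    have := dl_nonneg X η
    omega
  rw [hXη] at hA12 hXX'
  have hη' : (X' : G → ℂ) = (η : G → ℂ) - A ν₁ ν₂ := by
    rw [hA12]; abel
  -- the support of `η` in the family is the class of `ν₁`
  have hc' : ∀ ν', r ν' η ≠ 0 → δ ν₁ ν' = 1 := by
    intro ν' hν'
    rcases hδ ν₁ ν' with h0 | h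
    swap
    · exact h
    exfalso
    have d1 : δ ν₁ μ = 0 := hδ0 ν₁ μ η (by rw [hμ]; exact h1)
    have d2 : δ ν' μ = 0 := hδ0 ν' μ η (by rw [hμ]; exact hν')
    have d3 : δ ν₁ μ' = 0 := hδ0 ν₁ μ' η (by rw [hμ']; exact h1)
    have d4 : δ ν' μ' = 0 := hδ0 ν' μ' η (by rw [hμ']; exact hν')
    have d5 : δ μ ν' = 0 := hδ0 μ ν' η (by rw [hμ]; exact (Ne.symm hν'))
    obtain ⟨X₁, Y₁, hXY₁, hA1⟩ := hA ν₁ μ d1
    obtain ⟨X₂, Y₂, hXY₂, hA2⟩ := hA ν' μ d2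
    obtain ⟨Z, Z', hZZ', hA3⟩ := hA μ μ' hμμ'
    have e1 := eAr ν₁ μ X₁ Y₁ η hA1
    have e2 := eAr ν' μ X₂ Y₂ η hA2
    have e3 := eAr μ μ' Z Z' η hA3
    have hX₁ : X₁ = η := by
      apply eq_of_dl_eq_one
      have := dl_nonneg Y₁ η
      have := dl_le_one X₁ η
      have := dl_nonneg X₁ η
      omega
    have hX₂ : X₂ = η := by
      apply eq_of_dl_eq_one
      have := dl_nonneg Y₂ η
      have := dl_le_one X₂ η
      have := dl_nonneg X₂ η
      omega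
    rw [hX₁] at hA1 hXY₁
    rw [hX₂] at hA2 hXY₂
    have e4 := eAA ν₁ μ ν' μ η Y₁ η Y₂ hA1 hA2
    have e5 := eAA ν₁ μ μ μ' η Y₁ Z Z' hA1 hA3
    have e6 := eAA ν' μ μ μ' η Y₂ Z Z' hA2 hA3
    rw [dl_self, dl_of_ne hXY₂, dl_of_ne' hXY₁, h0, d1, d5, hδrefl] at e4
    have hY12 : Y₁ ≠ Y₂ := ne_of_dl_eq_zero (by omega)
    -- `η` is neither `Z` nor `Z'`
    have hZη : dl Z η = 0 ∧ dl Z' η = 0 := by
      rw [hμ, hμ'] at e3
      rcases Classical.em (Z = η) with hz | hz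
      · exfalso
        have hz' : Z' ≠ η := fun h => hZZ' (hz.trans h.symm)
        rw [hz, dl_self, dl_of_ne hz'] at e3
        omega
      · rw [dl_of_ne hz] at e3
        refine ⟨dl_of_ne hz, ?_⟩
        omega
    rw [dl_comm η Z, dl_comm η Z', hZη.1, hZη.2, d1, d3, hδrefl, hμμ'] at e5
    rw [dl_comm η Z, dl_comm η Z', hZη.1, hZη.2, d2, d4, hδrefl, hμμ'] at e6
    have hY₁Z : Y₁ = Z := by
      apply eq_of_dl_eq_one
      have := dl_nonneg Y₁ Z'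
      have := dl_le_one Y₁ Z
      omega
    have hY₂Z : Y₂ = Z := by
      apply eq_of_dl_eq_one
      have := dl_nonneg Y₂ Z'
      have := dl_le_one Y₂ Z
      omega
    exact hY12 (hY₁Z.trans hY₂Z.symm)
  refine ⟨X', hη', ?_⟩
  intro ξ hξ hξ2 κ
  rcases hδ ν₂ κ with h0 | h
  swap
  · rw [← hrel ν₂ κ ξ h]; exact hξ2
  obtain ⟨Z, Z', hZZ', hA3⟩ := hA ν₂ κ h0
  have e7 := eAA ν₁ ν₂ ν₂ κ η X' Z Z' hA12 hA3
  rw [hδ12, hδrefl, h0] at e7
  have e8 := eAr ν₂ κ Z Z' η hA3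
  rw [h2] at e8
  have e9 := eAr ν₂ κ Z Z' ξ hA3
  have hX'Z : X' = Z := by
    by_contra hne
    rw [dl_of_ne hne] at e7
    have hηZ' : η = Z' := by
      apply eq_of_dl_eq_one
      have := dl_nonneg η Z
      have := dl_nonneg X' Z'
      have := dl_le_one η Z'
      rcases hδ ν₁ κ with h | h <;> omega
    have hZη' : Z ≠ η := by rw [hηZ']; exact hZZ'
    have hrκ : r κ η ≠ 0 := by
      rw [← hηZ', dl_self, dl_of_ne hZη'] at e8
      omega
    have h3 := hc' κ hrκ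
    rw [← hηZ', dl_self, dl_of_ne' hZη', dl_of_ne' hXX', h3] at e7
    omega
  rw [← hX'Z, dl_of_ne' hξ] at e9
  have := dl_nonneg Z' ξ
  omega

end Cfsg.Agent.Lib.Helper82.BL
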