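import Mathlib
import Cfsg.Prelude.Def_Blocks
import Cfsg.Agent.Lib.Helper80.CharOps
import Cfsg.Agent.Lib.Helper80.CharKer
import Cfsg.Agent.Lib.Helper15.LinIrr
import Cfsg.Agent.Lib.Helper82.BLGen
import Cfsg.Agent.Lib.Helper82.BLCentral

/-!
# Induction from the centralizer of a Sylow subgroup with uniform centralizers

The structure `Data` records a subgroup `P`, central in `C`, with `C` normalized by `N`, such
that the `p`-singular elements of `C` form a TI set with normalizer `N`, the action of `N` on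
`P` being free outside `C`, together with an extension map for linear characters of `P`.
Functions on `C` vanishing on the `p`-regular elements are induced to `G`, and the restriction
back to `C` is the sum of the `N`-conjugates.
-/

set_option autoImplicit false

namespace Cfsg.Agent.Lib.Helper82.BL

open scoped ComplexConjugate BigOperators
open Cfsg.Agent.Lib.Helper80

/-- Sum over a group of a function vanishing off a subgroup. -/
theorem sum_eq_sum_subtype {G : Type*} [Group G] [Fintype G] {M : Type*} [AddCommMonoid M]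
    (N : Subgroup G) [Fintype ↥N] (f : G → M) (hf : ∀ x, x ∉ N → f x = 0) :
    ∑ x : G, f x = ∑ n : ↥N, f n := by
  classical
  rw [← Finset.sum_subtype (Finset.univ.filter (fun x : G => x ∈ N)) (by simp) f]
  symm
  apply Finset.sum_filter_of_ne
  intro x _ hx
  by_contra h
  exact hx (hf x h)

theorem sum_subtype_eq_sum_ite {G : Type*} [Group G] [Fintype G] {M : Type*} [AddCommMonoid M]
    (N : Subgroup G) [Fintype ↥N] [DecidablePred (fun x => x ∈ N)] (f : G → M) :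
    ∑ n : ↥N, f n = ∑ x : G, (if x ∈ N then f x else 0) := by
  rw [sum_eq_sum_subtype N (fun x => if x ∈ N then f x else 0) (fun x hx => by simp [hx])]
  refine Finset.sum_congr rfl (fun n _ => ?_)
  simp

theorem sum_subgroup_le {G : Type*} [Group G] [Fintype G] {C N : Subgroup G} (hCN : C ≤ N)
    [Fintype ↥C] [Fintype ↥N] (f : G → ℝ) (hf : ∀ x, 0 ≤ f x) :
    ∑ c : ↥C, f c ≤ ∑ n : ↥N, f n := by
  classical
  rw [sum_subtype_eq_sum_ite C f, sum_subtype_eq_sum_ite N f]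
  refine Finset.sum_le_sum (fun x _ => ?_)
  by_cases hC : x ∈ C
  · rw [if_pos hC, if_pos (hCN hC)]
  · rw [if_neg hC]
    split_ifs
    · exact hf x
    · exact le_rfl

theorem sum_indicator_subgroup {G : Type*} [Group G] [Fintype G] {C N : Subgroup G}
    (hCN : C ≤ N) [Fintype ↥C] [Fintype ↥N] [DecidablePred (· ∈ C)] :
    ∑ n : ↥N, (if (n : G) ∈ C then (1 : ℂ) else 0) = (Nat.card C : ℂ) := by
  classical
  rw [← sum_eq_sum_subtype N (fun x => if x ∈ C then (1 : ℂ) else 0)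
    (fun x hx => by
      have : x ∉ C := fun h => hx (hCN h)
      simp [this])]
  rw [sum_eq_sum_subtype C (fun x => if x ∈ C then (1 : ℂ) else 0) (fun x hx => by simp [hx])]
  simp [Nat.card_eq_fintype_card]

theorem indFun_sub {G : Type*} [Group G] [Fintype G] (H : Subgroup G) (α β : H → ℂ) :
    Cfsg.indFun H (α - β) = Cfsg.indFun H α - Cfsg.indFun H β := by
  have h : α - β = α + (-1 : ℂ) • β := by
    funext c
    simp [sub_eq_add_neg]
  rw [h, indFun_add, indFun_smul]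
  funext g
  simp [sub_eq_add_neg]

/-- The data of a Sylow-like subgroup with uniform centralizers. -/
structure Data (G : Type*) [Group G] (p : ℕ) where
  P : Subgroup G
  C : Subgroup G
  N : Subgroup G
  hPC : P ≤ C
  hCN : C ≤ N
  hcent : ∀ y ∈ P, ∀ c ∈ C, y * c = c * y
  hNC : ∀ n ∈ N, ∀ c ∈ C, n⁻¹ * c * n ∈ C
  hNP : ∀ n ∈ N, ∀ y ∈ P, n⁻¹ * y * n ∈ P
  hTI : ∀ c ∈ C, p ∣ orderOf c → ∀ x : G, x * c * x⁻¹ ∈ C → x ∈ N
  hfree : ∀ n ∈ N, n ∉ C → ∀ y ∈ P, n⁻¹ * y * n = y → y = 1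
  hat : (↥P →* ℂˣ) →* (↥C →* ℂˣ)
  hat_inc : ∀ (ω : ↥P →* ℂˣ) (y : ↥P), hat ω (Subgroup.inclusion hPC y) = ω y
  hat_reg : ∀ (ω : ↥P →* ℂˣ) (c : ↥C), ¬ p ∣ orderOf (c : G) → hat ω c = 1

namespace Data

variable {G : Type*} [Group G] {p : ℕ} (d : Data G p)

/-- Conjugation by an element of `N` on `C`. -/
def conjC (n : ↥d.N) : ↥d.C ≃* ↥d.C where
  toFun c := ⟨(n : G)⁻¹ * (c : G) * (n : G), d.hNC n n.2 c c.2⟩
  invFun c := ⟨(n : G) * (c : G) * (n : G)⁻¹, by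
    have := d.hNC (n : G)⁻¹ (inv_mem n.2) c c.2
    simpa using this⟩
  left_inv c := by apply Subtype.ext; simp [mul_assoc]
  right_inv c := by apply Subtype.ext; simp [mul_assoc]
  map_mul' a b := by apply Subtype.ext; simp [mul_assoc]

theorem conjC_coe (n : ↥d.N) (c : ↥d.C) :
    ((d.conjC n c : ↥d.C) : G) = (n : G)⁻¹ * (c : G) * (n : G) := rfl

/-- Conjugation by an element of `N` on `P`. -/
def conjP (n : ↥d.N) : ↥d.P →* ↥d.P where
  toFun y := ⟨(n : G)⁻¹ * (y : G) * (n : G), d.hNP n n.2 y y.2⟩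
  map_one' := by apply Subtype.ext; simp
  map_mul' a b := by apply Subtype.ext; simp [mul_assoc]

theorem conjP_coe (n : ↥d.N) (y : ↥d.P) :
    ((d.conjP n y : ↥d.P) : G) = (n : G)⁻¹ * (y : G) * (n : G) := rfl

/-- The inclusion of `P` in `C`. -/
def inc : ↥d.P →* ↥d.C := Subgroup.inclusion d.hPC

theorem inc_coe (y : ↥d.P) : ((d.inc y : ↥d.C) : G) = (y : G) := rfl

theorem conjC_inc (n : ↥d.N) (y : ↥d.P) : d.conjC n (d.inc y) = d.inc (d.conjP n y) :=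
  Subtype.ext rfl

theorem conjC_mul (m n : ↥d.N) (c : ↥d.C) : d.conjC (m * n) c = d.conjC n (d.conjC m c) := by
  apply Subtype.ext
  simp only [conjC_coe, Subgroup.coe_mul, mul_inv_rev]
  group

theorem conjC_one (c : ↥d.C) : d.conjC 1 c = c := by
  apply Subtype.ext
  simp [conjC_coe]

theorem inc_cent (y : ↥d.P) (c : ↥d.C) : d.inc y * c = c * d.inc y :=
  Subtype.ext (d.hcent y y.2 c c.2)

theorem conjP_mul_of_mem (n c' : ↥d.N) (hc : (c' : G) ∈ d.C) :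
    d.conjP (n * c') = d.conjP n := by
  ext y
  simp only [conjP_coe, Subgroup.coe_mul, mul_inv_rev]
  have h := d.hcent _ (d.hNP n n.2 y y.2) (c' : G) hc
  calc (c' : G)⁻¹ * (n : G)⁻¹ * (y : G) * ((n : G) * (c' : G))
      = (c' : G)⁻¹ * (((n : G)⁻¹ * (y : G) * (n : G)) * (c' : G)) := by group
    _ = (c' : G)⁻¹ * ((c' : G) * ((n : G)⁻¹ * (y : G) * (n : G))) := by rw [h]
    _ = (n : G)⁻¹ * (y : G) * (n : G) := by group

/-- The conjugate of a function on `C` by an element of `N`. -/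
def cj (θ : ↥d.C → ℂ) (n : ↥d.N) : ↥d.C → ℂ := fun c => θ (d.conjC n c)

/-- The sum of the `N`-conjugates, divided by the order of `C`. -/
noncomputable def Psi [Fintype ↥d.N] (θ : ↥d.C → ℂ) : ↥d.C → ℂ :=
  fun c => (Nat.card d.C : ℂ)⁻¹ * ∑ n : ↥d.N, θ (d.conjC n c)

/-- Conjugacy under `N`. -/
def Rel (θ₁ θ₂ : ↥d.C → ℂ) : Prop := ∃ n : ↥d.N, d.cj θ₂ n = θ₁

/-- The stabilizer in `N` is `C`. -/
def NFree (θ : ↥d.C → ℂ) : Prop := ∀ n : ↥d.N, d.cj θ n = θ → (n : G) ∈ d.C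

/-- The twist by the extension of a linear character of `P`. -/
noncomputable def tw (θ : ↥d.C → ℂ) (ω : ↥d.P →* ℂˣ) : ↥d.C → ℂ :=
  fun c => ((d.hat ω c : ℂˣ) : ℂ) * θ c

/-- Weights. -/
def Wt (θ : ↥d.C → ℂ) (κ : ↥d.P →* ℂˣ) : Prop := HasWt d.inc θ κ

/-- Vanishing on the `p`-regular elements. -/
def VanReg (α : ↥d.C → ℂ) : Prop := ∀ c : ↥d.C, ¬ p ∣ orderOf (c : G) → α c = 0

theorem cj_apply (θ : ↥d.C → ℂ) (n : ↥d.N) (c : ↥d.C) : d.cj θ n c = θ (d.conjC n c) := rfl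

theorem cj_irr {θ : ↥d.C → ℂ} (hθ : Cfsg.IsIrrCharacter ↥d.C θ) (n : ↥d.N) :
    Cfsg.IsIrrCharacter ↥d.C (d.cj θ n) :=
  isIrrCharacter_comp_mulEquiv (d.conjC n) hθ

theorem cj_char {θ : ↥d.C → ℂ} (hθ : Cfsg.IsCharacter ↥d.C θ) (n : ↥d.N) :
    Cfsg.IsCharacter ↥d.C (d.cj θ n) :=
  isCharacter_comp (d.conjC n).toMonoidHom hθ

theorem classInner_cj [Fintype ↥d.C] (α β : ↥d.C → ℂ) (n : ↥d.N) :
    Cfsg.classInner (d.cj α n) (d.cj β n) = Cfsg.classInner α β := by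
  unfold Cfsg.classInner
  congr 1
  exact Equiv.sum_comp (d.conjC n).toEquiv (fun c => α c * conj (β c))

theorem cj_res {ψ : G → ℂ} (hψ : Cfsg.IsClassFunction G ψ) (n : ↥d.N) :
    d.cj (fun c : ↥d.C => ψ c) n = fun c : ↥d.C => ψ c := by
  funext c
  show ψ ((n : G)⁻¹ * (c : G) * (n : G)) = ψ c
  have := hψ c (n : G)⁻¹
  rwa [inv_inv] at this

theorem cj_cj (θ : ↥d.C → ℂ) (m n : ↥d.N) : d.cj (d.cj θ m) n = d.cj θ (n * m) := by
  funext c
  show θ (d.conjC m (d.conjC n c)) = θ (d.conjC (n * m) c)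
  rw [conjC_mul]

theorem cj_one (θ : ↥d.C → ℂ) : d.cj θ 1 = θ := by
  funext c
  show θ (d.conjC 1 c) = θ c
  rw [conjC_one]

theorem cj_of_mem {θ : ↥d.C → ℂ} (hθ : Cfsg.IsClassFunction ↥d.C θ) (n : ↥d.N)
    (hn : (n : G) ∈ d.C) : d.cj θ n = θ := by
  funext c
  have := hθ c ⟨(n : G)⁻¹, inv_mem hn⟩
  show θ (d.conjC n c) = θ c
  rw [← this]
  congr 1
  apply Subtype.ext
  simp [conjC_coe]

theorem cj_sub (α β : ↥d.C → ℂ) (n : ↥d.N) : d.cj (α - β) n = d.cj α n - d.cj β n := rfl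

theorem Psi_eq [Fintype ↥d.N] (θ : ↥d.C → ℂ) :
    d.Psi θ = (Nat.card d.C : ℂ)⁻¹ • ∑ n : ↥d.N, d.cj θ n := by
  funext c
  simp [Psi, cj, Finset.sum_apply]

theorem Psi_sub [Fintype ↥d.N] (α β : ↥d.C → ℂ) : d.Psi (α - β) = d.Psi α - d.Psi β := by
  funext c
  simp only [Psi, Pi.sub_apply, Finset.sum_sub_distrib, mul_sub]

theorem Psi_cj [Fintype ↥d.N] (θ : ↥d.C → ℂ) (m : ↥d.N) : d.Psi (d.cj θ m) = d.Psi θ := by
  funext c
  unfold Psi
  congr 1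
  rw [← Equiv.sum_comp (Equiv.mulRight m) (fun n : ↥d.N => θ (d.conjC n c))]
  refine Finset.sum_congr rfl (fun n _ => ?_)
  show θ (d.conjC m (d.conjC n c)) = θ (d.conjC (n * m) c)
  rw [conjC_mul]

theorem Psi_one_val [Fintype ↥d.N] (θ : ↥d.C → ℂ) :
    d.Psi θ 1 = (Nat.card d.C : ℂ)⁻¹ * ((Nat.card d.N : ℂ) * θ 1) := by
  unfold Psi
  congr 1
  simp [Nat.card_eq_fintype_card]

/-- The restriction to `C` of the function induced from a function vanishing on the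
`p`-regular elements. -/
theorem indFun_res [Fintype G] [Fintype ↥d.N] (α : ↥d.C → ℂ) (hα : d.VanReg α) (c : ↥d.C) :
    Cfsg.indFun d.C α (c : G) = d.Psi α c := by
  unfold Cfsg.indFun Psi
  congr 1
  rw [sum_eq_sum_subtype d.N (fun x : G => Cfsg.extendByZero d.C α (x⁻¹ * (c : G) * x))]
  · refine Finset.sum_congr rfl (fun n _ => ?_)
    exact extendByZero_apply_mem d.C α (d.conjC n c)
  · intro x hx
    by_cases hmem : x⁻¹ * (c : G) * x ∈ d.C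
    · have h1 : Cfsg.extendByZero d.C α (x⁻¹ * (c : G) * x) = α ⟨x⁻¹ * (c : G) * x, hmem⟩ :=
        extendByZero_apply_mem d.C α ⟨x⁻¹ * (c : G) * x, hmem⟩
      rw [h1]
      apply hα
      intro hdiv
      apply hx
      refine d.hTI _ hmem hdiv x ?_
      have : x * (x⁻¹ * (c : G) * x) * x⁻¹ = (c : G) := by group
      rw [this]
      exact c.2
    · exact extendByZero_apply_not_mem d.C α hmem

theorem inner_ind_ind [Fintype G] [Fintype ↥d.C] [Fintype ↥d.N] (α β : ↥d.C → ℂ)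
    (hβ : d.VanReg β) :
    Cfsg.classInner (Cfsg.indFun d.C α) (Cfsg.indFun d.C β) = Cfsg.classInner α (d.Psi β) := by
  rw [frobenius_reciprocity d.C α _ (isClassFunction_indFun d.C β)]
  congr 1
  funext c
  exact d.indFun_res β hβ c

theorem inner_Psi_right [Fintype ↥d.C] [Fintype ↥d.N] (α β : ↥d.C → ℂ) :
    Cfsg.classInner α (d.Psi β)
      = (Nat.card d.C : ℂ)⁻¹ * ∑ n : ↥d.N, Cfsg.classInner α (d.cj β n) := by
  rw [Psi_eq, classInner_smul_right, classInner_sum_right, map_inv₀, Complex.conj_natCast]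

theorem inner_Psi_left [Fintype ↥d.C] [Fintype ↥d.N] (α β : ↥d.C → ℂ) :
    Cfsg.classInner (d.Psi α) β
      = (Nat.card d.C : ℂ)⁻¹ * ∑ n : ↥d.N, Cfsg.classInner (d.cj α n) β := by
  rw [Psi_eq, classInner_smul_left, classInner_sum_left]

theorem card_C_ne_zero [Finite ↥d.C] : (Nat.card d.C : ℂ) ≠ 0 := by
  exact_mod_cast (Nat.card_pos (α := ↥d.C)).ne'

/-- The inner product of an irreducible character with the conjugate sum of another one. -/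
theorem inner_Psi_irr [Fintype G] [Fintype ↥d.C] [Fintype ↥d.N] {θ₁ θ₂ : ↥d.C → ℂ}
    (h₁ : Cfsg.IsIrrCharacter ↥d.C θ₁) (h₂ : Cfsg.IsIrrCharacter ↥d.C θ₂) (hfree : d.NFree θ₂)
    [Decidable (d.Rel θ₁ θ₂)] :
    Cfsg.classInner θ₁ (d.Psi θ₂) = if d.Rel θ₁ θ₂ then 1 else 0 := by
  classical
  rw [inner_Psi_right]
  by_cases hrel : d.Rel θ₁ θ₂
  · rw [if_pos hrel]
    obtain ⟨n₀, hn₀⟩ := hrel
    have hterm : ∀ n : ↥d.N, Cfsg.classInner θ₁ (d.cj θ₂ n)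
        = if ((n₀⁻¹ * n : ↥d.N) : G) ∈ d.C then (1 : ℂ) else 0 := by
      intro n
      rw [classInner_irr_fun h₁ (d.cj_irr h₂ n)]
      by_cases hmem : ((n₀⁻¹ * n : ↥d.N) : G) ∈ d.C
      · rw [if_pos hmem, if_pos]
        rw [← hn₀]
        have h3 : d.cj θ₂ n = d.cj (d.cj θ₂ (n₀⁻¹ * n)) n₀ := by
          rw [cj_cj]
          congr 1
          group
        rw [h3, d.cj_of_mem (isClassFunction_of_isCharacter (isCharacter_of_isIrrCharacter h₂))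
          _ hmem]
      · rw [if_neg hmem, if_neg]
        intro heq
        apply hmem
        apply hfree
        have h3 : d.cj θ₂ (n₀⁻¹ * n) = d.cj (d.cj θ₂ n) n₀⁻¹ := by rw [cj_cj]
        rw [h3, ← heq, ← hn₀, cj_cj, inv_mul_cancel, cj_one]
    simp_rw [hterm]
    have hre : ∑ n : ↥d.N, (if ((n₀⁻¹ * n : ↥d.N) : G) ∈ d.C then (1 : ℂ) else 0)
        = ∑ n : ↥d.N, (if (n : G) ∈ d.C then (1 : ℂ) else 0) :=
      Fintype.sum_equiv (Equiv.mulLeft n₀⁻¹) _ _ (fun n => rfl)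
    rw [hre, sum_indicator_subgroup d.hCN]
    exact inv_mul_cancel₀ d.card_C_ne_zero
  · rw [if_neg hrel]
    rw [Finset.sum_eq_zero, mul_zero]
    intro n _
    rw [classInner_irr_fun h₁ (d.cj_irr h₂ n), if_neg]
    intro heq
    exact hrel ⟨n, heq.symm⟩

theorem rel_refl (θ : ↥d.C → ℂ) : d.Rel θ θ := ⟨1, d.cj_one θ⟩

theorem rel_cj (θ : ↥d.C → ℂ) (n : ↥d.N) : d.Rel (d.cj θ n) θ := ⟨n, rfl⟩

theorem rel_symm {θ₁ θ₂ : ↥d.C → ℂ} (h : d.Rel θ₁ θ₂) : d.Rel θ₂ θ₁ := by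
  obtain ⟨n, hn⟩ := h
  refine ⟨n⁻¹, ?_⟩
  rw [← hn, cj_cj, inv_mul_cancel, cj_one]

theorem rel_inner [Fintype ↥d.C] {θ₁ θ₂ : ↥d.C → ℂ} (h : d.Rel θ₁ θ₂) {ψ : G → ℂ}
    (hψ : Cfsg.IsClassFunction G ψ) :
    Cfsg.classInner θ₁ (fun c : ↥d.C => ψ c) = Cfsg.classInner θ₂ (fun c : ↥d.C => ψ c) := by
  obtain ⟨n, hn⟩ := h
  rw [← hn]
  conv_lhs => rw [← d.cj_res hψ n]
  exact d.classInner_cj _ _ n

/-! ### Weights -/

theorem wt_cj {θ : ↥d.C → ℂ} {κ : ↥d.P →* ℂˣ} (h : d.Wt θ κ) (n : ↥d.N) :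
    d.Wt (d.cj θ n) (κ.comp (d.conjP n)) := by
  intro y c
  show θ (d.conjC n (d.inc y * c)) = ((κ (d.conjP n y) : ℂˣ) : ℂ) * θ (d.conjC n c)
  rw [map_mul, conjC_inc]
  exact h _ _

theorem wt_tw {θ : ↥d.C → ℂ} {κ : ↥d.P →* ℂˣ} (h : d.Wt θ κ) (ω : ↥d.P →* ℂˣ) :
    d.Wt (d.tw θ ω) (ω * κ) := by
  have h1 : (d.hat ω).comp d.inc = ω := by
    ext y
    simp only [MonoidHom.comp_apply]
    rw [show d.inc y = Subgroup.inclusion d.hPC y from rfl, d.hat_inc]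
  have h2 := HasWt.mul (hasWt_hom (ι := d.inc) (d.hat ω)) h
  rw [h1] at h2
  exact h2

theorem P_comm (y w : ↥d.P) : y * w = w * y :=
  Subtype.ext (d.hcent y y.2 w (d.hPC w.2))

theorem free_wt [Finite ↥d.P] (n : ↥d.N) (hn : (n : G) ∉ d.C) (κ : ↥d.P →* ℂˣ)
    (h : κ.comp (d.conjP n) = κ) : κ = 1 := by
  have hinj : Function.Injective (fun w : ↥d.P => d.conjP n w * w⁻¹) := by
    intro w w' heq
    simp only at heq
    have h1 : d.conjP n (w'⁻¹ * w) = w'⁻¹ * w := by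
      rw [map_mul, map_inv]
      have : d.conjP n w = d.conjP n w' * w'⁻¹ * w := by
        rw [← heq]; group
      rw [this]; group
    have h2 := d.hfree n n.2 hn (w'⁻¹ * w : ↥d.P) (w'⁻¹ * w : ↥d.P).2
      (congrArg Subtype.val h1)
    have h3 : w'⁻¹ * w = 1 := Subtype.ext h2
    exact (inv_mul_eq_one.1 h3).symm
  have hsurj := Finite.surjective_of_injective hinj
  ext y
  obtain ⟨w, rfl⟩ := hsurj y
  have h4 := DFunLike.congr_fun h w
  simp only [MonoidHom.comp_apply] at h4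
  simp only [map_mul, map_inv, h4, mul_inv_cancel, MonoidHom.one_apply]

theorem nfree_of_wt [Finite ↥d.P] {θ : ↥d.C → ℂ} {κ : ↥d.P →* ℂˣ} (h1 : θ 1 ≠ 0)
    (hw : d.Wt θ κ) (hκ : κ ≠ 1) : d.NFree θ := by
  intro n hcj
  by_contra hn
  have h2 := d.wt_cj hw n
  rw [hcj] at h2
  exact hκ (d.free_wt n hn κ (HasWt.eq h2 hw h1))

theorem rel_wt {θ₁ θ₂ : ↥d.C → ℂ} {κ₁ κ₂ : ↥d.P →* ℂˣ} (h : d.Rel θ₁ θ₂)
    (h₁ : d.Wt θ₁ κ₁) (h₂ : d.Wt θ₂ κ₂) (hne : θ₁ 1 ≠ 0) :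
    ∃ n : ↥d.N, κ₁ = κ₂.comp (d.conjP n) := by
  obtain ⟨n, hn⟩ := h
  refine ⟨n, ?_⟩
  have h3 := d.wt_cj h₂ n
  rw [hn] at h3
  exact HasWt.eq h₁ h3 hne

/-! ### Twists -/

theorem tw_apply (θ : ↥d.C → ℂ) (ω : ↥d.P →* ℂˣ) (c : ↥d.C) :
    d.tw θ ω c = ((d.hat ω c : ℂˣ) : ℂ) * θ c := rfl

theorem tw_irr [Finite ↥d.C] {θ : ↥d.C → ℂ} (hθ : Cfsg.IsIrrCharacter ↥d.C θ)
    (ω : ↥d.P →* ℂˣ) : Cfsg.IsIrrCharacter ↥d.C (d.tw θ ω) := by
  have h := Cfsg.Agent.Lib.Helper15.isIrrCharacter_lin_mul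
    (Cfsg.Agent.Lib.Helper15.isCharacter_of_hom (d.hat ω)) (by simp) hθ
  exact h

theorem tw_one (θ : ↥d.C → ℂ) : d.tw θ 1 = θ := by
  funext c
  simp [tw]

theorem tw_one_val (θ : ↥d.C → ℂ) (ω : ↥d.P →* ℂˣ) : d.tw θ ω 1 = θ 1 := by
  simp [tw]

theorem tw_sub_vanReg (θ : ↥d.C → ℂ) (ω₁ ω₂ : ↥d.P →* ℂˣ) :
    d.VanReg (d.tw θ ω₁ - d.tw θ ω₂) := by
  intro c hc
  simp [tw, d.hat_reg ω₁ c hc, d.hat_reg ω₂ c hc]

theorem inner_tw_tw [Fintype ↥d.C] (f g : ↥d.C → ℂ) (ω : ↥d.P →* ℂˣ) :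
    Cfsg.classInner (d.tw f ω) (d.tw g ω) = Cfsg.classInner f g :=
  classInner_hom_mul (d.hat ω) f g

end Data

end Cfsg.Agent.Lib.Helper82.BL
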