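import Mathlib
import Cfsg.Prelude.Def_Blocks
import Cfsg.Agent.Lib.Helper82.BLInd

/-!
# Restrictions to the centralizer and induced differences
-/

set_option autoImplicit false

namespace Cfsg.Agent.Lib.Helper82.BL

open scoped ComplexConjugate BigOperators
open Cfsg.Agent.Lib.Helper80

namespace Data

variable {G : Type*} [Group G] {p : ℕ} (d : Data G p)

/-- The restriction to `C` of a character irreducible on `N` is the conjugate sum of any of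
its irreducible constituents with trivial stabilizer. -/
theorem res_eq_Psi [Fintype G] [Fintype ↥d.C] [Fintype ↥d.N] {ψ : G → ℂ}
    (hψ : Cfsg.IsCharacter G ψ)
    (hψN : Cfsg.classInner (fun n : ↥d.N => ψ n) (fun n : ↥d.N => ψ n) = 1)
    {θ : ↥d.C → ℂ} (hθ : Cfsg.IsIrrCharacter ↥d.C θ) (hfree : d.NFree θ)
    (hc : Cfsg.classInner θ (fun c : ↥d.C => ψ c) ≠ 0) :
    (fun c : ↥d.C => ψ c) = d.Psi θ := by
  classical
  obtain ⟨k, hk⟩ := classInner_nat (isCharacter_of_isIrrCharacter hθ)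
    (isCharacter_restrict d.C hψ)
  have hk1 : 1 ≤ k := by
    rcases Nat.eq_zero_or_pos k with h0 | h
    · exfalso; apply hc; rw [hk, h0]; simp
    · exact h
  have hcf := isClassFunction_of_isCharacter hψ
  have h_i : Cfsg.classInner (fun c : ↥d.C => ψ c) (d.Psi θ)
      = (Nat.card d.C : ℂ)⁻¹ * ((Nat.card d.N : ℂ) * k) := by
    rw [inner_Psi_right]
    congr 1
    have : ∀ n : ↥d.N, Cfsg.classInner (fun c : ↥d.C => ψ c) (d.cj θ n) = k := by
      intro n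
      have h1 := d.classInner_cj (fun c : ↥d.C => ψ c) θ n
      rw [d.cj_res hcf n] at h1
      rw [h1]
      exact classInner_nat_symm hk
    simp_rw [this]
    rw [Finset.sum_const, Finset.card_univ, nsmul_eq_mul, ← Nat.card_eq_fintype_card]
  have h_ii : Cfsg.classInner (d.Psi θ) (fun c : ↥d.C => ψ c)
      = (Nat.card d.C : ℂ)⁻¹ * ((Nat.card d.N : ℂ) * k) := by
    rw [inner_Psi_left]
    congr 1
    have : ∀ n : ↥d.N, Cfsg.classInner (d.cj θ n) (fun c : ↥d.C => ψ c) = k := by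
      intro n
      have h1 := d.classInner_cj θ (fun c : ↥d.C => ψ c) n
      rw [d.cj_res hcf n] at h1
      rw [h1]
      exact hk
    simp_rw [this]
    rw [Finset.sum_const, Finset.card_univ, nsmul_eq_mul, ← Nat.card_eq_fintype_card]
  have h_iii : Cfsg.classInner (d.Psi θ) (d.Psi θ)
      = (Nat.card d.C : ℂ)⁻¹ * (Nat.card d.N : ℂ) := by
    rw [inner_Psi_left]
    congr 1
    have : ∀ n : ↥d.N, Cfsg.classInner (d.cj θ n) (d.Psi θ) = 1 := by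
      intro n
      rw [d.inner_Psi_irr (d.cj_irr hθ n) hθ hfree, if_pos (d.rel_cj θ n)]
    simp_rw [this]
    simp [Nat.card_eq_fintype_card]
  have hposC : (0 : ℝ) < (Nat.card d.C : ℝ) := by exact_mod_cast Nat.card_pos
  have hposN : (0 : ℝ) < (Nat.card d.N : ℝ) := by exact_mod_cast Nat.card_pos
  have h_iv : (Cfsg.classInner (fun c : ↥d.C => ψ c) (fun c : ↥d.C => ψ c)).re
      ≤ (Nat.card d.C : ℝ)⁻¹ * (Nat.card d.N : ℝ) := by
    rw [classInner_self_eq, Complex.ofReal_re]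
    have hsum : ∑ n : ↥d.N, Complex.normSq (ψ n) = (Nat.card d.N : ℝ) := by
      have h1 := hψN
      rw [classInner_self_eq] at h1
      have h2 : (Nat.card d.N : ℝ)⁻¹ * ∑ n : ↥d.N, Complex.normSq (ψ n) = 1 := by
        exact_mod_cast h1
      field_simp at h2
      linarith
    have hle := sum_subgroup_le d.hCN (fun x => Complex.normSq (ψ x))
      (fun x => Complex.normSq_nonneg _)
    rw [hsum] at hle
    exact mul_le_mul_of_nonneg_left hle (inv_pos.2 hposC).le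
  have hzero : (fun c : ↥d.C => ψ c) - d.Psi θ = 0 := by
    apply eq_zero_of_classInner_self_re_nonpos
    rw [classInner_sub_left, classInner_sub_right, classInner_sub_right, h_i, h_ii, h_iii]
    have e1 : ((Nat.card d.C : ℂ)⁻¹ * ((Nat.card d.N : ℂ) * k))
        = (((Nat.card d.C : ℝ)⁻¹ * ((Nat.card d.N : ℝ) * k) : ℝ) : ℂ) := by push_cast; ring
    have e2 : ((Nat.card d.C : ℂ)⁻¹ * (Nat.card d.N : ℂ))
        = (((Nat.card d.C : ℝ)⁻¹ * (Nat.card d.N : ℝ) : ℝ) : ℂ) := by push_cast; ring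
    rw [e1, e2]
    simp only [Complex.sub_re, Complex.ofReal_re]
    have hk' : (1 : ℝ) ≤ k := by exact_mod_cast hk1
    have hnn : 0 ≤ (Nat.card d.C : ℝ)⁻¹ * (Nat.card d.N : ℝ) :=
      mul_nonneg (inv_pos.2 hposC).le hposN.le
    nlinarith [mul_nonneg hnn (sub_nonneg.2 hk')]
  exact sub_eq_zero.1 hzero

open Classical in
/-- The indicator of conjugacy under `N`. -/
noncomputable def rd (θ₁ θ₂ : ↥d.C → ℂ) : ℤ := if d.Rel θ₁ θ₂ then 1 else 0

theorem rd_cases (θ₁ θ₂ : ↥d.C → ℂ) :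
    (d.Rel θ₁ θ₂ ∧ d.rd θ₁ θ₂ = 1) ∨ (¬ d.Rel θ₁ θ₂ ∧ d.rd θ₁ θ₂ = 0) := by
  classical
  unfold rd
  by_cases h : d.Rel θ₁ θ₂
  · left; exact ⟨h, if_pos h⟩
  · right; exact ⟨h, if_neg h⟩

theorem rd_self (θ : ↥d.C → ℂ) : d.rd θ θ = 1 := by
  rcases d.rd_cases θ θ with h | h
  · exact h.2
  · exact absurd (d.rel_refl θ) h.1

theorem rd_comm (θ₁ θ₂ : ↥d.C → ℂ) : d.rd θ₁ θ₂ = d.rd θ₂ θ₁ := by
  rcases d.rd_cases θ₁ θ₂ with h | h <;> rcases d.rd_cases θ₂ θ₁ with h' | h'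
  · rw [h.2, h'.2]
  · exact absurd (d.rel_symm h.1) h'.1
  · exact absurd (d.rel_symm h'.1) h.1
  · rw [h.2, h'.2]

theorem inner_Psi_irr' [Fintype G] [Fintype ↥d.C] [Fintype ↥d.N] {θ₁ θ₂ : ↥d.C → ℂ}
    (h₁ : Cfsg.IsIrrCharacter ↥d.C θ₁) (h₂ : Cfsg.IsIrrCharacter ↥d.C θ₂) (hfree : d.NFree θ₂) :
    Cfsg.classInner θ₁ (d.Psi θ₂) = ((d.rd θ₁ θ₂ : ℤ) : ℂ) := by
  classical
  rw [d.inner_Psi_irr h₁ h₂ hfree]
  unfold rd
  split_ifs <;> simp

/-- The inner product of two induced differences. -/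
theorem inner_A_A [Fintype G] [Fintype ↥d.C] [Fintype ↥d.N] {α₁ α₂ β₁ β₂ : ↥d.C → ℂ}
    (ha₁ : Cfsg.IsIrrCharacter ↥d.C α₁) (ha₂ : Cfsg.IsIrrCharacter ↥d.C α₂)
    (hb₁ : Cfsg.IsIrrCharacter ↥d.C β₁) (hb₂ : Cfsg.IsIrrCharacter ↥d.C β₂)
    (hf₁ : d.NFree β₁) (hf₂ : d.NFree β₂) (hβ : d.VanReg (β₁ - β₂)) :
    Cfsg.classInner (Cfsg.indFun d.C (α₁ - α₂)) (Cfsg.indFun d.C (β₁ - β₂))
      = ((d.rd α₁ β₁ - d.rd α₁ β₂ - d.rd α₂ β₁ + d.rd α₂ β₂ : ℤ) : ℂ) := by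
  rw [d.inner_ind_ind _ _ hβ, Psi_sub, classInner_sub_left, classInner_sub_right,
    classInner_sub_right, d.inner_Psi_irr' ha₁ hb₁ hf₁, d.inner_Psi_irr' ha₁ hb₂ hf₂,
    d.inner_Psi_irr' ha₂ hb₁ hf₁, d.inner_Psi_irr' ha₂ hb₂ hf₂]
  push_cast
  ring

/-- Frobenius reciprocity for an induced difference. -/
theorem inner_A_right [Fintype G] [Fintype ↥d.C] (α₁ α₂ : ↥d.C → ℂ) {ψ : G → ℂ}
    (hψ : Cfsg.IsClassFunction G ψ) :
    Cfsg.classInner (Cfsg.indFun d.C (α₁ - α₂)) ψ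
      = Cfsg.classInner α₁ (fun c : ↥d.C => ψ c) - Cfsg.classInner α₂ (fun c : ↥d.C => ψ c) := by
  rw [frobenius_reciprocity d.C _ ψ hψ, classInner_sub_left]

/-- An induced difference of two non-conjugate irreducible characters of the same degree is
a difference of two distinct irreducible characters. -/
theorem exists_irr_sub_irr_A [Fintype G] [Fintype ↥d.C] [Fintype ↥d.N] {α₁ α₂ : ↥d.C → ℂ}
    (ha₁ : Cfsg.IsIrrCharacter ↥d.C α₁) (ha₂ : Cfsg.IsIrrCharacter ↥d.C α₂)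
    (hf₁ : d.NFree α₁) (hf₂ : d.NFree α₂) (hα : d.VanReg (α₁ - α₂)) (hdeg : α₁ 1 = α₂ 1)
    (hrel : ¬ d.Rel α₁ α₂) :
    ∃ X X' : Cfsg.IrrCharacter G, X ≠ X' ∧
      Cfsg.indFun d.C (α₁ - α₂) = (X : G → ℂ) - (X' : G → ℂ) := by
  rw [indFun_sub]
  apply exists_irr_sub_irr (isCharacter_indFun d.C (isCharacter_of_isIrrCharacter ha₁))
    (isCharacter_indFun d.C (isCharacter_of_isIrrCharacter ha₂))
  · rw [← indFun_sub, d.inner_A_A ha₁ ha₂ ha₁ ha₂ hf₁ hf₂ hα, d.rd_self, d.rd_self]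
    have h1 : d.rd α₁ α₂ = 0 := by
      rcases d.rd_cases α₁ α₂ with h | h
      · exact absurd h.1 hrel
      · exact h.2
    have h2 : d.rd α₂ α₁ = 0 := by rw [d.rd_comm, h1]
    rw [h1, h2]
    norm_num
  · rw [indFun_one, indFun_one, hdeg]

/-! ### Products of conjugate sums -/

theorem Psi_mul_conj_Psi [Fintype ↥d.N] (α β : ↥d.C → ℂ) :
    (fun c => d.Psi α c * conj (d.Psi β c)) =
      ((Nat.card d.C : ℂ)⁻¹ * (Nat.card d.C : ℂ)⁻¹) •
        ∑ a : ↥d.N, ∑ b : ↥d.N, (fun c => d.cj α a c * conj (d.cj β b c)) := by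
  funext c
  simp only [Psi, cj, Pi.smul_apply, Finset.sum_apply, smul_eq_mul, map_mul, map_sum, map_inv₀,
    Complex.conj_natCast]
  rw [← Finset.sum_mul_sum]
  ring

theorem inner_Psi_mul_conj_Psi [Fintype ↥d.C] [Fintype ↥d.N] (γ α β : ↥d.C → ℂ) :
    Cfsg.classInner γ (fun c => d.Psi α c * conj (d.Psi β c)) =
      ((Nat.card d.C : ℂ)⁻¹ * (Nat.card d.C : ℂ)⁻¹) *
        ∑ a : ↥d.N, ∑ b : ↥d.N,
          Cfsg.classInner γ (fun c => d.cj α a c * conj (d.cj β b c)) := by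
  rw [Psi_mul_conj_Psi, classInner_smul_right, classInner_sum_right]
  simp_rw [classInner_sum_right]
  simp [map_mul, map_inv₀]

theorem exists_of_inner_PsiPsi_ne_zero [Fintype ↥d.C] [Fintype ↥d.N] {γ α β : ↥d.C → ℂ}
    (h : Cfsg.classInner γ (fun c => d.Psi α c * conj (d.Psi β c)) ≠ 0) :
    ∃ a b : ↥d.N, Cfsg.classInner γ (fun c => d.cj α a c * conj (d.cj β b c)) ≠ 0 := by
  rw [inner_Psi_mul_conj_Psi] at h
  have h1 := right_ne_zero_of_mul h
  obtain ⟨a, -, ha⟩ := Finset.exists_ne_zero_of_sum_ne_zero h1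
  obtain ⟨b, -, hb⟩ := Finset.exists_ne_zero_of_sum_ne_zero ha
  exact ⟨a, b, hb⟩

theorem inner_PsiPsi_ne_zero [Fintype ↥d.C] [Fintype ↥d.N] {γ α β : ↥d.C → ℂ}
    (hγ : Cfsg.IsCharacter ↥d.C γ) (hα : Cfsg.IsCharacter ↥d.C α)
    (hβ : Cfsg.IsCharacter ↥d.C β) (a b : ↥d.N)
    (h : Cfsg.classInner γ (fun c => d.cj α a c * conj (d.cj β b c)) ≠ 0) :
    Cfsg.classInner γ (fun c => d.Psi α c * conj (d.Psi β c)) ≠ 0 := by
  rw [inner_Psi_mul_conj_Psi]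
  have hnat : ∀ a b : ↥d.N, ∃ k : ℕ,
      Cfsg.classInner γ (fun c => d.cj α a c * conj (d.cj β b c)) = k := by
    intro a b
    exact classInner_nat hγ (isCharacter_mul (d.cj_char hα a) (isCharacter_conj (d.cj_char hβ b)))
  refine mul_ne_zero (mul_ne_zero (inv_ne_zero d.card_C_ne_zero) (inv_ne_zero d.card_C_ne_zero)) ?_
  refine sum_nat_ne_zero Finset.univ _ ?_ (Finset.mem_univ a) ?_
  · intro a' _
    choose k hk using hnat a'
    refine ⟨∑ b', k b', ?_⟩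
    push_cast
    exact Finset.sum_congr rfl (fun b' _ => hk b')
  · exact sum_nat_ne_zero Finset.univ _ (fun b' _ => hnat a b') (Finset.mem_univ b) h

/-- The weight of a constituent of a product of conjugate sums. -/
theorem wt_of_inner_PsiPsi_ne_zero [Fintype ↥d.C] [Fintype ↥d.N] [Finite ↥d.P]
    {γ α β : ↥d.C → ℂ} {κγ κα κβ : ↥d.P →* ℂˣ} (hγ : d.Wt γ κγ) (hα : d.Wt α κα)
    (hβ : d.Wt β κβ)
    (h : Cfsg.classInner γ (fun c => d.Psi α c * conj (d.Psi β c)) ≠ 0) :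
    ∃ a b : ↥d.N, κγ = κα.comp (d.conjP a) * (κβ.comp (d.conjP b))⁻¹ := by
  obtain ⟨a, b, hab⟩ := d.exists_of_inner_PsiPsi_ne_zero h
  refine ⟨a, b, ?_⟩
  by_contra hne
  apply hab
  exact classInner_eq_zero_of_hasWt hγ (HasWt.mul (d.wt_cj hα a) (HasWt.conj (d.wt_cj hβ b))) hne

end Data

end Cfsg.Agent.Lib.Helper82.BL
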