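import Mathlib
import Cfsg.Prelude.Def_Blocks
import Cfsg.Agent.Lib.Helper82.BLInd2

/-!
# Orbits of linear characters and counting
-/

set_option autoImplicit false

namespace Cfsg.Agent.Lib.Helper82.BL

open scoped ComplexConjugate BigOperators
open Cfsg.Agent.Lib.Helper80

theorem exists_notMem_of_card_lt {α : Type*} [Fintype α] (s : Finset α)
    (h : s.card < Fintype.card α) : ∃ a, a ∉ s := by
  by_contra h'
  push Not at h'
  have : s = Finset.univ := Finset.eq_univ_iff_forall.2 h'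
  rw [this, Finset.card_univ] at h
  exact lt_irrefl _ h

/-- The set of quotients of two elements of a finite set has at most `1 + (k ^ 2 - k)`
elements. -/
theorem card_div_self_le {α : Type*} [Group α] [DecidableEq α] (O : Finset α) :
    (Finset.image₂ (fun u v => u * v⁻¹) O O).card ≤ 1 + (O.card * O.card - O.card) := by
  have hsub : Finset.image₂ (fun u v => u * v⁻¹) O O
      ⊆ insert 1 (O.offDiag.image (fun q : α × α => q.1 * q.2⁻¹)) := by
    intro z hz
    rw [Finset.mem_image₂] at hz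
    obtain ⟨u, hu, v, hv, rfl⟩ := hz
    by_cases huv : u = v
    · rw [huv, mul_inv_cancel]
      exact Finset.mem_insert_self _ _
    · apply Finset.mem_insert_of_mem
      rw [Finset.mem_image]
      exact ⟨(u, v), Finset.mem_offDiag.2 ⟨hu, hv, huv⟩, rfl⟩
  calc (Finset.image₂ (fun u v => u * v⁻¹) O O).card
      ≤ (insert 1 (O.offDiag.image (fun q : α × α => q.1 * q.2⁻¹))).card :=
        Finset.card_le_card hsub
    _ ≤ (O.offDiag.image (fun q : α × α => q.1 * q.2⁻¹)).card + 1 := Finset.card_insert_le _ _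
    _ ≤ O.offDiag.card + 1 := Nat.add_le_add_right Finset.card_image_le 1
    _ = 1 + (O.card * O.card - O.card) := by rw [Finset.offDiag_card, add_comm]

theorem sq_sub_mono {t x : ℕ} (h : t ≤ x) : t * t - t ≤ x * x - x := by
  have h1 : t * t - t = t * (t - 1) := by rw [Nat.mul_sub_one]
  have h2 : x * x - x = x * (x - 1) := by rw [Nat.mul_sub_one]
  rw [h1, h2]
  exact Nat.mul_le_mul h (Nat.sub_le_sub_right h 1)

namespace Data

variable {G : Type*} [Group G] {p : ℕ} (d : Data G p)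

theorem comp_conjP_comp (κ : ↥d.P →* ℂˣ) (a b : ↥d.N) :
    (κ.comp (d.conjP a)).comp (d.conjP b) = κ.comp (d.conjP (b * a)) := by
  ext y
  simp only [MonoidHom.comp_apply]
  congr 2
  apply Subtype.ext
  simp only [conjP_coe, Subgroup.coe_mul, mul_inv_rev]
  group

theorem conjP_one : d.conjP 1 = MonoidHom.id _ := by
  ext y
  simp [conjP_coe]

theorem comp_conjP_inv {κ μ : ↥d.P →* ℂˣ} {n : ↥d.N} (h : κ.comp (d.conjP n) = μ) :
    κ = μ.comp (d.conjP n⁻¹) := by
  rw [← h, comp_conjP_comp, inv_mul_cancel, conjP_one, MonoidHom.comp_id]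

theorem comp_conjP_eq_one {κ : ↥d.P →* ℂˣ} {n : ↥d.N} (h : κ.comp (d.conjP n) = 1) :
    κ = 1 := by
  rw [d.comp_conjP_inv h]
  exact MonoidHom.one_comp _

/-- The orbit of a linear character of `P` under `N`. -/
noncomputable def orbit [Fintype ↥d.N] [DecidableEq (↥d.P →* ℂˣ)] (κ : ↥d.P →* ℂˣ) :
    Finset (↥d.P →* ℂˣ) :=
  Finset.univ.image (fun n : ↥d.N => κ.comp (d.conjP n))

theorem mem_orbit [Fintype ↥d.N] [DecidableEq (↥d.P →* ℂˣ)] (κ : ↥d.P →* ℂˣ) (n : ↥d.N) :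
    κ.comp (d.conjP n) ∈ d.orbit κ :=
  Finset.mem_image.2 ⟨n, Finset.mem_univ _, rfl⟩

theorem card_orbit_mul_le [Fintype ↥d.N] [Fintype ↥d.C] [DecidableEq (↥d.P →* ℂˣ)]
    (κ : ↥d.P →* ℂˣ) : (d.orbit κ).card * Nat.card d.C ≤ Nat.card d.N := by
  classical
  have h1 := Finset.card_eq_sum_card_image (fun n : ↥d.N => κ.comp (d.conjP n)) Finset.univ
  rw [Nat.card_eq_fintype_card (α := ↥d.N), ← Finset.card_univ, h1]
  rw [← smul_eq_mul]
  apply Finset.card_nsmul_le_sum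
  intro o ho
  obtain ⟨n₀, -, hn₀⟩ := Finset.mem_image.1 ho
  rw [Nat.card_eq_fintype_card, ← Finset.card_univ]
  apply Finset.card_le_card_of_injOn (fun c : ↥d.C => n₀ * ⟨(c : G), d.hCN c.2⟩)
  · intro c _
    simp only [Finset.coe_filter, Finset.mem_univ, true_and, Set.mem_ofPred_eq]
    rw [d.conjP_mul_of_mem n₀ ⟨(c : G), d.hCN c.2⟩ c.2]
    exact hn₀
  · intro c _ c' _ h
    have h2 := mul_left_cancel h
    exact Subtype.ext (congrArg (fun z : ↥d.N => (z : G)) h2)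

/-- The conjugate sums of characters whose conjugates are not related are orthogonal. -/
theorem inner_Psi_Psi_eq_zero [Fintype G] [Fintype ↥d.C] [Fintype ↥d.N] {θ₁ θ₂ : ↥d.C → ℂ}
    (h₁ : Cfsg.IsIrrCharacter ↥d.C θ₁) (h₂ : Cfsg.IsIrrCharacter ↥d.C θ₂) (hfree : d.NFree θ₂)
    (hrel : ¬ d.Rel θ₁ θ₂) : Cfsg.classInner (d.Psi θ₁) (d.Psi θ₂) = 0 := by
  classical
  rw [inner_Psi_left]
  rw [Finset.sum_eq_zero, mul_zero]
  intro n _
  rw [d.inner_Psi_irr (d.cj_irr h₁ n) h₂ hfree, if_neg]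
  rintro ⟨m, hm⟩
  apply hrel
  refine ⟨n⁻¹ * m, ?_⟩
  rw [← cj_cj, hm, cj_cj, inv_mul_cancel, cj_one]

theorem inner_Psi_Psi_self [Fintype G] [Fintype ↥d.C] [Fintype ↥d.N] {θ : ↥d.C → ℂ}
    (hθ : Cfsg.IsIrrCharacter ↥d.C θ) (hfree : d.NFree θ) :
    Cfsg.classInner (d.Psi θ) (d.Psi θ) = (Nat.card d.C : ℂ)⁻¹ * (Nat.card d.N : ℂ) := by
  classical
  rw [inner_Psi_left]
  congr 1
  have : ∀ n : ↥d.N, Cfsg.classInner (d.cj θ n) (d.Psi θ) = 1 := by
    intro n
    rw [d.inner_Psi_irr (d.cj_irr hθ n) hθ hfree, if_pos (d.rel_cj θ n)]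
  simp_rw [this]
  simp [Nat.card_eq_fintype_card]

/-- The trivial function on `C` is orthogonal to the conjugate sum of a function of
nontrivial weight. -/
theorem inner_one_Psi [Fintype ↥d.C] [Fintype ↥d.N] [Finite ↥d.P] {θ : ↥d.C → ℂ}
    {κ : ↥d.P →* ℂˣ} (hw : d.Wt θ κ) (hκ : κ ≠ 1) :
    Cfsg.classInner (fun _ : ↥d.C => (1 : ℂ)) (d.Psi θ) = 0 := by
  rw [inner_Psi_right, Finset.sum_eq_zero, mul_zero]
  intro n _
  have h1 : HasWt d.inc (fun _ : ↥d.C => (1 : ℂ)) 1 := by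
    intro a c
    simp
  refine classInner_eq_zero_of_hasWt h1 (d.wt_cj hw n) ?_
  intro h
  exact hκ (d.comp_conjP_eq_one h.symm)

end Data

end Cfsg.Agent.Lib.Helper82.BL
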