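import Mathlib
import Cfsg.Prelude.Def_Blocks
import Cfsg.Agent.Lib.Helper82.BLCount
import Cfsg.Agent.Lib.Helper82.BLComb

/-!
# The main contradiction: the normalizer of `P` is not its centralizer
-/

set_option autoImplicit false
set_option maxHeartbeats 1600000

namespace Cfsg.Agent.Lib.Helper82.BL

open scoped ComplexConjugate BigOperators
open Cfsg.Agent.Lib.Helper80

theorem cg1 {α : Type*} [CommGroup α] (a b : α) : a * (a * b⁻¹)⁻¹ = b := by
  rw [mul_inv_rev, inv_inv, mul_comm b, mul_inv_cancel_left]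

theorem cg2 {α : Type*} [CommGroup α] (a b : α) : a * b⁻¹ * b = a := inv_mul_cancel_right a b

theorem cg3 {α : Type*} [CommGroup α] (k l l1 : α) : (k * l⁻¹) * (k * l1⁻¹)⁻¹ = l1 * l⁻¹ := by
  rw [mul_inv_rev, inv_inv, mul_comm k l⁻¹, mul_assoc, mul_comm l1,
    mul_inv_cancel_left, mul_comm]

theorem cg4 {α : Type*} [CommGroup α] (l l1 : α) : (l * l1⁻¹)⁻¹ = l1 * l⁻¹ := by
  rw [mul_inv_rev, inv_inv]

namespace Data

variable {G : Type*} [Group G] {p : ℕ} (d : Data G p)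

theorem main_contra [Fintype G] [Fintype ↥d.C] [Fintype ↥d.N] [Finite ↥d.P]
    (hker : ∀ ψ : G → ℂ, Cfsg.IsIrrCharacter G ψ → (∀ y : ↥d.P, ψ (y : G) = ψ 1) →
      ψ = fun _ => 1)
    (hNC : ∃ n : ↥d.N, (n : G) ∉ d.C)
    (χ : G → ℂ) (hχ : Cfsg.IsIrrCharacter G χ) (hχ1 : χ ≠ fun _ => 1)
    (hχN : Cfsg.classInner (fun n : ↥d.N => χ n) (fun n : ↥d.N => χ n) = 1)
    (hcard : Cfsg.charDegree χ ^ 2 + 1 < Nat.card (↥d.P →* ℂˣ)) : False := by
  classical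
  have hfinΛ : Finite (↥d.P →* ℂˣ) := Nat.finite_of_card_ne_zero (by omega)
  letI : Fintype (↥d.P →* ℂˣ) := Fintype.ofFinite _
  letI : Fintype (Cfsg.IrrCharacter G) := Fintype.ofFinite _
  have hcardΛ : Cfsg.charDegree χ ^ 2 + 1 < Fintype.card (↥d.P →* ℂˣ) := by
    rw [← Nat.card_eq_fintype_card]; exact hcard
  set x := Cfsg.charDegree χ with hx
  have hχc := isCharacter_of_isIrrCharacter hχ
  have hχcf := isClassFunction_of_isCharacter hχc
  have hone : Cfsg.IsCharacter ↥d.C (fun _ : ↥d.C => (1 : ℂ)) := isCharacter_one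
  have hwt1 : d.Wt (fun _ : ↥d.C => (1 : ℂ)) 1 := by intro a c; simp
  -- Step 1 : a constituent of the restriction to `C` of nontrivial weight
  obtain ⟨y₀, hy₀⟩ : ∃ y : ↥d.P, χ (y : G) ≠ χ 1 := by
    by_contra h
    push Not at h
    exact hχ1 (hker χ hχ h)
  have hresC : Cfsg.IsCharacter ↥d.C (fun c : ↥d.C => χ c) := isCharacter_restrict d.C hχc
  obtain ⟨θ₀', hθ₀c, hθ₀y⟩ := exists_constituent_ne (isClassFunction_of_isCharacter hresC)
    (y := d.inc y₀) hy₀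
  obtain ⟨lam0, hlam0⟩ := exists_weight d.inc d.inc_cent θ₀'.2
  have hlam0w : d.Wt (θ₀' : ↥d.C → ℂ) lam0 := hlam0
  have hlam0ne : lam0 ≠ 1 := by
    intro h
    apply hθ₀y
    have := hlam0 y₀ 1
    rw [mul_one, h] at this
    simpa using this
  have hθ₀1 : (θ₀' : ↥d.C → ℂ) 1 ≠ 0 := char_one_ne_zero θ₀'.2
  have hθ₀free : d.NFree (θ₀' : ↥d.C → ℂ) := d.nfree_of_wt hθ₀1 hlam0w hlam0ne
  have hχC₀ : (fun c : ↥d.C => χ c) = d.Psi (θ₀' : ↥d.C → ℂ) :=
    d.res_eq_Psi hχc hχN θ₀'.2 hθ₀free hθ₀c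
  -- cardinalities
  have hcardC_pos : 0 < Nat.card d.C := Nat.card_pos
  have hCN_lt : Nat.card d.C < Nat.card d.N := by
    obtain ⟨n, hn⟩ := hNC
    by_contra hle
    push Not at hle
    have := Subgroup.eq_of_le_of_card_ge d.hCN hle
    apply hn
    rw [this]
    exact n.2
  have hdeg : x * Nat.card d.C = Nat.card d.N * Cfsg.charDegree (θ₀' : ↥d.C → ℂ) := by
    have h1 : χ ((1 : ↥d.C) : G) = d.Psi (θ₀' : ↥d.C → ℂ) 1 := congrFun hχC₀ 1
    rw [d.Psi_one_val, char_one_eq_charDegree (isCharacter_of_isIrrCharacter θ₀'.2)] at h1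
    have h2 : χ ((1 : ↥d.C) : G) = (x : ℂ) := by
      rw [hx, ← char_one_eq_charDegree hχc]
      rfl
    rw [h2] at h1
    have hC0 := d.card_C_ne_zero
    have h3 : (x : ℂ) * (Nat.card d.C : ℂ)
        = (Nat.card d.N : ℂ) * (Cfsg.charDegree (θ₀' : ↥d.C → ℂ) : ℂ) := by
      rw [h1]
      field_simp
    exact_mod_cast h3
  have hdθ : 0 < Cfsg.charDegree (θ₀' : ↥d.C → ℂ) := charDegree_pos θ₀'.2
  have hNx : Nat.card d.N ≤ x * Nat.card d.C := by
    rw [hdeg]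
    exact Nat.le_mul_of_pos_right _ hdθ
  have hx2 : 2 ≤ x := by
    by_contra h
    push Not at h
    have : x * Nat.card d.C ≤ 1 * Nat.card d.C := Nat.mul_le_mul_right _ (by omega)
    omega
  have horb : ∀ κ : ↥d.P →* ℂˣ, (d.orbit κ).card ≤ x := by
    intro κ
    have h1 := d.card_orbit_mul_le κ
    have h2 : (d.orbit κ).card * Nat.card d.C ≤ x * Nat.card d.C := le_trans h1 hNx
    exact Nat.le_of_mul_le_mul_right h2 hcardC_pos
  have hxx : x * x - x + 2 ≤ x * x := by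
    have : x ≤ x * x := Nat.le_mul_self x
    have h2 : 2 * x ≤ x * x := Nat.mul_le_mul_right x hx2
    omega
  have hsq : x ^ 2 = x * x := sq x
  -- Step 2 : the constituent `η`
  set Φ : G → ℂ := χ * (fun g => conj (χ g)) with hΦ
  have hΦc : Cfsg.IsCharacter G Φ := isCharacter_mul hχc (isCharacter_conj hχc)
  have hΦcf := isClassFunction_of_isCharacter hΦc
  have hΦC : (fun c : ↥d.C => Φ c)
      = fun c => d.Psi (θ₀' : ↥d.C → ℂ) c * conj (d.Psi (θ₀' : ↥d.C → ℂ) c) := by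
    funext c
    rw [← hχC₀]
    rfl
  have h1C : Cfsg.classInner (fun _ : ↥d.C => (1 : ℂ)) (fun c : ↥d.C => Φ c)
      = (Nat.card d.C : ℂ)⁻¹ * (Nat.card d.N : ℂ) := by
    have e : Cfsg.classInner (fun _ : ↥d.C => (1 : ℂ)) (fun c : ↥d.C => Φ c)
        = Cfsg.classInner (d.Psi (θ₀' : ↥d.C → ℂ)) (d.Psi (θ₀' : ↥d.C → ℂ)) := by
      rw [hΦC]
      unfold Cfsg.classInner
      congr 1
      refine Finset.sum_congr rfl (fun c _ => ?_)
      simp only [map_mul, Complex.conj_conj, one_mul]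
      ring
    rw [e, d.inner_Psi_Psi_self θ₀'.2 hθ₀free]
  let oneG : Cfsg.IrrCharacter G := ⟨fun _ => 1, isIrrCharacter_one⟩
  have h1G : Cfsg.classInner (oneG : G → ℂ) Φ = 1 := by
    have e : Cfsg.classInner (oneG : G → ℂ) Φ = Cfsg.classInner χ χ := by
      unfold Cfsg.classInner
      congr 1
      refine Finset.sum_congr rfl (fun g _ => ?_)
      show (1 : ℂ) * conj (χ g * conj (χ g)) = χ g * conj (χ g)
      simp only [map_mul, Complex.conj_conj, one_mul]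
      ring
    rw [e, classInner_self hχ]
  have h1GC : Cfsg.classInner (fun _ : ↥d.C => (1 : ℂ)) (fun c : ↥d.C => (oneG : G → ℂ) c) = 1 :=
    classInner_self (isIrrCharacter_one (G := ↥d.C))
  obtain ⟨η, hηne, hηΦ, hηC⟩ : ∃ η : Cfsg.IrrCharacter G, η ≠ oneG ∧
      Cfsg.classInner (η : G → ℂ) Φ ≠ 0 ∧
      Cfsg.classInner (fun _ : ↥d.C => (1 : ℂ)) (fun c : ↥d.C => (η : G → ℂ) c) ≠ 0 := by
    have hexp := resInner_expansion d.C (fun _ : ↥d.C => (1 : ℂ)) hΦcf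
    rw [h1C, ← Finset.add_sum_erase Finset.univ _ (Finset.mem_univ oneG), h1G, h1GC,
      one_mul] at hexp
    have hne : ∑ ψ ∈ Finset.univ.erase oneG, Cfsg.classInner (ψ : G → ℂ) Φ *
        Cfsg.classInner (fun _ : ↥d.C => (1 : ℂ)) (fun c : ↥d.C => (ψ : G → ℂ) c) ≠ 0 := by
      intro h0
      rw [h0, add_zero] at hexp
      have hC0 := d.card_C_ne_zero
      have h3 : (Nat.card d.N : ℂ) = (Nat.card d.C : ℂ) := by
        field_simp at hexp
        exact hexp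
      have h4 : Nat.card d.N = Nat.card d.C := by exact_mod_cast h3
      omega
    obtain ⟨η, hη, hη0⟩ := Finset.exists_ne_zero_of_sum_ne_zero hne
    exact ⟨η, Finset.ne_of_mem_erase hη, left_ne_zero_of_mul hη0, right_ne_zero_of_mul hη0⟩
  -- Step 3 : a constituent of `η` on `C` of nontrivial weight
  have hη1 : (η : G → ℂ) ≠ fun _ => 1 := fun h => hηne (Subtype.ext h)
  obtain ⟨y₁, hy₁⟩ : ∃ y : ↥d.P, (η : G → ℂ) (y : G) ≠ (η : G → ℂ) 1 := by
    by_contra h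
    push Not at h
    exact hη1 (hker η η.2 h)
  have hηc := isCharacter_of_isIrrCharacter η.2
  have hηcf := isClassFunction_of_isCharacter hηc
  obtain ⟨ϑ', hϑc, hϑy⟩ := exists_constituent_ne
    (isClassFunction_of_isCharacter (isCharacter_restrict d.C hηc)) (y := d.inc y₁) hy₁
  obtain ⟨ν₁, hν₁⟩ := exists_weight d.inc d.inc_cent ϑ'.2
  have hν₁w : d.Wt (ϑ' : ↥d.C → ℂ) ν₁ := hν₁
  have hν₁ne : ν₁ ≠ 1 := by
    intro h
    apply hϑy
    have := hν₁ y₁ 1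
    rw [mul_one, h] at this
    simpa using this
  have hϑ1 : (ϑ' : ↥d.C → ℂ) 1 ≠ 0 := char_one_ne_zero ϑ'.2
  have hϑΦ : Cfsg.classInner (ϑ' : ↥d.C → ℂ) (fun c : ↥d.C => Φ c) ≠ 0 :=
    resInner_ne_zero_of_constituent d.C (isCharacter_of_isIrrCharacter ϑ'.2) hΦc η hηΦ hϑc
  rw [hΦC] at hϑΦ
  obtain ⟨a₀, b₀, hab⟩ := d.exists_of_inner_PsiPsi_ne_zero hϑΦ
  obtain ⟨θ, hθ, lam1, hθw, hlam1, hθfree, hχC, θ'', hθ'', κ, hκw, m, hm, hab'⟩ :
      ∃ θ : ↥d.C → ℂ, Cfsg.IsIrrCharacter ↥d.C θ ∧ ∃ lam1 : ↥d.P →* ℂˣ, d.Wt θ lam1 ∧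
        lam1 ≠ 1 ∧ d.NFree θ ∧ (fun c : ↥d.C => χ c) = d.Psi θ ∧
        ∃ θ'' : ↥d.C → ℂ, Cfsg.IsIrrCharacter ↥d.C θ'' ∧ ∃ κ : ↥d.P →* ℂˣ, d.Wt θ'' κ ∧
        ∃ m : ↥d.N, (d.cj θ m = θ'' ∧ κ = lam1.comp (d.conjP m)) ∧
        Cfsg.classInner (ϑ' : ↥d.C → ℂ) (fun c => θ'' c * conj (θ c)) ≠ 0 := by
    have hne : lam0.comp (d.conjP b₀) ≠ 1 := fun h => hlam0ne (d.comp_conjP_eq_one h)
    refine ⟨d.cj θ₀' b₀, d.cj_irr θ₀'.2 b₀, lam0.comp (d.conjP b₀), d.wt_cj hlam0w b₀, hne,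
      d.nfree_of_wt (char_one_ne_zero (d.cj_irr θ₀'.2 b₀)) (d.wt_cj hlam0w b₀) hne, ?_,
      d.cj θ₀' a₀, d.cj_irr θ₀'.2 a₀, lam0.comp (d.conjP a₀), d.wt_cj hlam0w a₀,
      a₀ * b₀⁻¹, ⟨?_, ?_⟩, hab⟩
    · rw [hχC₀, d.Psi_cj]
    · rw [cj_cj]
      congr 1
      group
    · rw [comp_conjP_comp]
      congr 2
      group
  have hν₁κ : ν₁ = κ * lam1⁻¹ := by
    by_contra hne
    exact hab' (classInner_eq_zero_of_hasWt hν₁w (HasWt.mul hκw (HasWt.conj hθw)) hne)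
  -- Step 4 : the choice of `lam`
  set O₁ := d.orbit lam1 with hO₁
  set S₁ := Finset.image₂ (fun u v : ↥d.P →* ℂˣ => u * v⁻¹) O₁ O₁ with hS₁
  have hS₁card : S₁.card ≤ 1 + (x * x - x) :=
    le_trans (card_div_self_le O₁) (Nat.add_le_add_left (sq_sub_mono (horb lam1)) 1)
  have hS₁mem : ∀ a b : ↥d.N, lam1.comp (d.conjP a) * (lam1.comp (d.conjP b))⁻¹ ∈ S₁ :=
    fun a b => Finset.mem_image₂_of_mem (d.mem_orbit lam1 a) (d.mem_orbit lam1 b)
  obtain ⟨lam, hlam⟩ := exists_notMem_of_card_lt (insert 1 (S₁.image (fun s => κ * s⁻¹))) (by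
    calc (insert 1 (S₁.image (fun s => κ * s⁻¹))).card
        ≤ (S₁.image (fun s => κ * s⁻¹)).card + 1 := Finset.card_insert_le _ _
      _ ≤ S₁.card + 1 := Nat.add_le_add_right Finset.card_image_le 1
      _ ≤ 1 + (x * x - x) + 1 := Nat.add_le_add_right hS₁card 1
      _ < Fintype.card (↥d.P →* ℂˣ) := by omega)
  rw [Finset.mem_insert, not_or] at hlam
  obtain ⟨hlamne, hlamS⟩ := hlam
  set ν₂ := κ * lam⁻¹ with hν₂
  have hν₂S : ν₂ ∉ S₁ := by
    intro h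
    apply hlamS
    rw [Finset.mem_image]
    refine ⟨ν₂, h, ?_⟩
    rw [hν₂]
    exact cg1 κ lam
  have h1S : (1 : ↥d.P →* ℂˣ) ∈ S₁ := by
    have h := hS₁mem 1 1
    have e : lam1.comp (d.conjP 1) * (lam1.comp (d.conjP 1))⁻¹ = 1 :=
      mul_inv_cancel (lam1.comp (d.conjP 1))
    rwa [e] at h
  have hν₂ne : ν₂ ≠ 1 := fun h => hν₂S (h ▸ h1S)
  have hlamO : ∀ a b : ↥d.N, lam.comp (d.conjP b) ≠ lam1.comp (d.conjP a) := by
    intro a b h
    have h1 : lam = lam1.comp (d.conjP (b⁻¹ * a)) := by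
      rw [d.comp_conjP_inv h, comp_conjP_comp]
    apply hν₂S
    rw [hν₂, h1, hm.2]
    exact hS₁mem m (b⁻¹ * a)
  -- Step 5 : the twisted character
  set θl := d.tw θ (lam * lam1⁻¹) with hθl
  have hθl_irr : Cfsg.IsIrrCharacter ↥d.C θl := d.tw_irr hθ _
  have hθl_w : d.Wt θl lam := by
    have h := d.wt_tw hθw (lam * lam1⁻¹)
    have e : lam * lam1⁻¹ * lam1 = lam := cg2 lam lam1
    rwa [e] at h
  have hθ1 : θ 1 ≠ 0 := char_one_ne_zero hθ
  have hθl1 : θl 1 = θ 1 := d.tw_one_val θ _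
  have hθl_free : d.NFree θl := d.nfree_of_wt (by rw [hθl1]; exact hθ1) hθl_w hlamne
  have hnrel : ∀ n : ↥d.N, ¬ d.Rel (d.cj θ n) θl := by
    intro n hrel
    obtain ⟨n', hn'⟩ := d.rel_wt hrel (d.wt_cj hθw n) hθl_w (char_one_ne_zero (d.cj_irr hθ n))
    exact hlamO n n' hn'.symm
  have hnrel' : ¬ d.Rel θ θl := by
    have := hnrel 1
    rwa [cj_one] at this
  have hvan : d.VanReg (θ - θl) := by
    have := d.tw_sub_vanReg θ 1 (lam * lam1⁻¹)
    rwa [tw_one] at this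
  set Aχ := Cfsg.indFun d.C (θ - θl) with hAχ
  set χl : G → ℂ := χ - Aχ with hχl
  have hχlC : (fun c : ↥d.C => χl c) = d.Psi θl := by
    funext c
    show χ c - Cfsg.indFun d.C (θ - θl) c = _
    rw [d.indFun_res _ hvan, d.Psi_sub]
    have h4 : χ (c : G) = d.Psi θ c := congrFun hχC c
    rw [h4]
    simp
  have hrd1 : d.rd θ θl = 0 := by
    rcases d.rd_cases θ θl with h | h
    · exact absurd h.1 hnrel'
    · exact h.2
  have hrd2 : d.rd θl θ = 0 := by rw [d.rd_comm]; exact hrd1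
  have hAχχ : Cfsg.classInner Aχ χ = 1 := by
    rw [hAχ, d.inner_A_right _ _ hχcf, hχC, d.inner_Psi_irr' hθ hθ hθfree,
      d.inner_Psi_irr' hθl_irr hθ hθfree, d.rd_self, hrd2]
    simp
  have hχAχ : Cfsg.classInner χ Aχ = 1 := by
    rw [← classInner_conj_symm, hAχχ]
    simp
  have hAχAχ : Cfsg.classInner Aχ Aχ = 2 := by
    rw [hAχ, d.inner_A_A hθ hθl_irr hθ hθl_irr hθfree hθl_free hvan, d.rd_self, d.rd_self,
      hrd1, hrd2]
    norm_num
  have hχl1 : χl 1 = χ 1 := by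
    have h2 : χl ((1 : ↥d.C) : G) = d.Psi θl 1 := congrFun hχlC 1
    have h3 : χ ((1 : ↥d.C) : G) = d.Psi θ 1 := congrFun hχC 1
    rw [d.Psi_one_val, hθl1] at h2
    rw [d.Psi_one_val] at h3
    rw [← h3] at h2
    exact h2
  have hχl_irr : Cfsg.IsIrrCharacter G χl := by
    have e : χl = (χ + Cfsg.indFun d.C θl) - Cfsg.indFun d.C θ := by
      rw [hχl, hAχ, indFun_sub]
      abel
    rw [e]
    apply isIrr_of_genChar_norm_one
      (isCharacter_add hχc (isCharacter_indFun d.C (isCharacter_of_isIrrCharacter hθl_irr)))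
      (isCharacter_indFun d.C (isCharacter_of_isIrrCharacter hθ))
    · rw [← e, hχl, classInner_sub_left, classInner_sub_right, classInner_sub_right,
        classInner_self hχ, hχAχ, hAχχ, hAχAχ]
      norm_num
    · rw [← Pi.sub_apply, ← e, hχl1, char_one_eq_charDegree hχc]
      simp only [Complex.natCast_re]
      exact_mod_cast charDegree_pos hχ
  -- Step 6 : the product with the twisted character
  have hχlc := isCharacter_of_isIrrCharacter hχl_irr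
  set Θ : G → ℂ := χ * (fun g => conj (χl g)) with hΘ
  have hΘc : Cfsg.IsCharacter G Θ := isCharacter_mul hχc (isCharacter_conj hχlc)
  have hΘcf := isClassFunction_of_isCharacter hΘc
  have hΘC : (fun c : ↥d.C => Θ c) = fun c => d.Psi θ c * conj (d.Psi θl c) := by
    funext c
    rw [← hχC, ← hχlC]
    rfl
  have hΘ1 : Cfsg.classInner (fun _ : ↥d.C => (1 : ℂ)) (fun c : ↥d.C => Θ c) = 0 := by
    by_contra hne
    rw [hΘC] at hne
    obtain ⟨a, b, hab⟩ := d.wt_of_inner_PsiPsi_ne_zero hwt1 hθw hθl_w hne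
    apply hlamO a b
    exact (mul_inv_eq_one.1 hab.symm).symm
  let fam : (↥d.P →* ℂˣ) → (↥d.C → ℂ) := fun κ' => d.tw (ϑ' : ↥d.C → ℂ) (κ' * ν₁⁻¹)
  have hfam_irr : ∀ κ', Cfsg.IsIrrCharacter ↥d.C (fam κ') := fun κ' => d.tw_irr ϑ'.2 _
  have hfam_w : ∀ κ', d.Wt (fam κ') κ' := by
    intro κ'
    have h := d.wt_tw hν₁w (κ' * ν₁⁻¹)
    have e : κ' * ν₁⁻¹ * ν₁ = κ' := cg2 κ' ν₁
    rwa [e] at h
  have hfam_one : ∀ κ', fam κ' 1 = (ϑ' : ↥d.C → ℂ) 1 := fun κ' => d.tw_one_val _ _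
  have hfam_free : ∀ κ', κ' ≠ 1 → d.NFree (fam κ') := fun κ' h =>
    d.nfree_of_wt (by rw [hfam_one]; exact hϑ1) (hfam_w κ') h
  have hfam_van : ∀ a b, d.VanReg (fam a - fam b) := fun a b => d.tw_sub_vanReg _ _ _
  have hfam_ν₁ : fam ν₁ = (ϑ' : ↥d.C → ℂ) := by
    show d.tw (ϑ' : ↥d.C → ℂ) (ν₁ * ν₁⁻¹) = _
    have e : ν₁ * ν₁⁻¹ = 1 := mul_inv_cancel ν₁
    rw [e, tw_one]
  have hϑ₂Θ : Cfsg.classInner (fam ν₂) (fun c : ↥d.C => Θ c) ≠ 0 := by
    rw [hΘC]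
    apply d.inner_PsiPsi_ne_zero (isCharacter_of_isIrrCharacter (hfam_irr ν₂))
      (isCharacter_of_isIrrCharacter hθ) (isCharacter_of_isIrrCharacter hθl_irr) m 1
    rw [hm.1, cj_one]
    have hω : ν₂ * ν₁⁻¹ = lam1 * lam⁻¹ := by
      rw [hν₂, hν₁κ]
      exact cg3 κ lam lam1
    have e : (fun c => θ'' c * conj (θl c))
        = d.tw (fun c => θ'' c * conj (θ c)) (lam1 * lam⁻¹) := by
      funext c
      show θ'' c * conj (((d.hat (lam * lam1⁻¹) c : ℂˣ) : ℂ) * θ c)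
        = ((d.hat (lam1 * lam⁻¹) c : ℂˣ) : ℂ) * (θ'' c * conj (θ c))
      rw [map_mul, Cfsg.Agent.Lib.Helper3.conj_hom_eq_inv]
      have h5 : (d.hat (lam * lam1⁻¹) c)⁻¹ = d.hat (lam1 * lam⁻¹) c := by
        have e5 : (lam * lam1⁻¹)⁻¹ = lam1 * lam⁻¹ := cg4 lam lam1
        have e6 : d.hat ((lam * lam1⁻¹)⁻¹) = (d.hat (lam * lam1⁻¹))⁻¹ :=
          map_inv d.hat (lam * lam1⁻¹)
        rw [← e5, e6]
        rfl
      rw [h5]
      ring
    show Cfsg.classInner (d.tw (ϑ' : ↥d.C → ℂ) (ν₂ * ν₁⁻¹)) _ ≠ 0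
    rw [hω, e, d.inner_tw_tw]
    exact hab'
  obtain ⟨ξ, hξΘ, hξϑ₂⟩ := exists_constituent_of_resInner_ne_zero d.C (fam ν₂) hΘcf hϑ₂Θ
  have hξ1 : Cfsg.classInner (fun _ : ↥d.C => (1 : ℂ)) (fun c : ↥d.C => (ξ : G → ℂ) c) = 0 := by
    by_contra hne
    exact resInner_ne_zero_of_constituent d.C hone hΘc ξ hξΘ hne hΘ1
  have hξw : ∀ κ', Cfsg.classInner (fam κ') (fun c : ↥d.C => (ξ : G → ℂ) c) ≠ 0 →
      ∃ a b : ↥d.N, κ' = lam1.comp (d.conjP a) * (lam.comp (d.conjP b))⁻¹ := by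
    intro κ' hne
    have h1 := resInner_ne_zero_of_constituent d.C
      (isCharacter_of_isIrrCharacter (hfam_irr κ')) hΘc ξ hξΘ hne
    rw [hΘC] at h1
    exact d.wt_of_inner_PsiPsi_ne_zero (hfam_w κ') hθw hθl_w h1
  have hηw : ∀ κ', Cfsg.classInner (fam κ') (fun c : ↥d.C => (η : G → ℂ) c) ≠ 0 → κ' ∈ S₁ := by
    intro κ' hne
    have h1 := resInner_ne_zero_of_constituent d.C
      (isCharacter_of_isIrrCharacter (hfam_irr κ')) hΦc η hηΦ hne
    have hΦC' : (fun c : ↥d.C => Φ c) = fun c => d.Psi θ c * conj (d.Psi θ c) := by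
      funext c
      rw [← hχC]
      rfl
    rw [hΦC'] at h1
    obtain ⟨a, b, hab⟩ := d.wt_of_inner_PsiPsi_ne_zero (hfam_w κ') hθw hθw h1
    rw [hab]
    exact hS₁mem a b
  -- Step 7 : the family of exceptional differences
  obtain ⟨μ, hμS⟩ := exists_notMem_of_card_lt S₁ (by omega)
  obtain ⟨μ', hμ'⟩ := exists_notMem_of_card_lt (S₁ ∪ d.orbit μ) (by
    calc (S₁ ∪ d.orbit μ).card ≤ S₁.card + (d.orbit μ).card := Finset.card_union_le _ _
      _ ≤ 1 + (x * x - x) + x := Nat.add_le_add hS₁card (horb μ)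
      _ < Fintype.card (↥d.P →* ℂˣ) := by
        have : x ≤ x * x := Nat.le_mul_self x
        omega)
  rw [Finset.mem_union, not_or] at hμ'
  obtain ⟨hμ'S, hμ'O⟩ := hμ'
  have hμne : μ ≠ 1 := fun h => hμS (h ▸ h1S)
  have hμ'ne : μ' ≠ 1 := fun h => hμ'S (h ▸ h1S)
  have hnat : ∀ (a : {κ' : ↥d.P →* ℂˣ // κ' ≠ 1}) (ψ : Cfsg.IrrCharacter G), ∃ k : ℕ,
      Cfsg.classInner (fam a.1) (fun c : ↥d.C => (ψ : G → ℂ) c) = k :=
    fun a ψ => classInner_nat (isCharacter_of_isIrrCharacter (hfam_irr a.1))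
      (isCharacter_restrict d.C (isCharacter_of_isIrrCharacter ψ.2))
  choose r hr using hnat
  have hr0 : ∀ (a : {κ' : ↥d.P →* ℂˣ // κ' ≠ 1}) (ψ : Cfsg.IrrCharacter G),
      r a ψ ≠ 0 ↔ Cfsg.classInner (fam a.1) (fun c : ↥d.C => (ψ : G → ℂ) c) ≠ 0 := by
    intro a ψ
    rw [hr a ψ]
    simp
  obtain ⟨η', hη', hcomb⟩ := comb (L := {κ' : ↥d.P →* ℂˣ // κ' ≠ 1})
    (fun a b => d.rd (fam a.1) (fam b.1))
    (fun a b => by
      rcases d.rd_cases (fam a.1) (fam b.1) with h | h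
      · exact Or.inr h.2
      · exact Or.inl h.2)
    (fun a => d.rd_self _)
    (fun a b => Cfsg.indFun d.C (fam a.1 - fam b.1)) r
    (by
      intro a b hab
      have hrel : ¬ d.Rel (fam a.1) (fam b.1) := by
        rcases d.rd_cases (fam a.1) (fam b.1) with h | h
        · rw [h.2] at hab
          exact absurd hab one_ne_zero
        · exact h.1
      exact d.exists_irr_sub_irr_A (hfam_irr a.1) (hfam_irr b.1) (hfam_free a.1 a.2)
        (hfam_free b.1 b.2) (hfam_van _ _) (by rw [hfam_one, hfam_one]) hrel)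
    (fun a b a' b' => d.inner_A_A (hfam_irr a.1) (hfam_irr b.1) (hfam_irr a'.1) (hfam_irr b'.1)
      (hfam_free a'.1 a'.2) (hfam_free b'.1 b'.2) (hfam_van _ _))
    (by
      intro a b ψ
      rw [d.inner_A_right _ _ (isClassFunction_of_isCharacter (isCharacter_of_isIrrCharacter ψ.2)),
        hr, hr]
      push_cast
      ring)
    (by
      intro a b ψ hab
      have hrel : d.Rel (fam a.1) (fam b.1) := by
        rcases d.rd_cases (fam a.1) (fam b.1) with h | h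
        · exact h.1
        · rw [h.2] at hab
          exact absurd hab zero_ne_one
      have := d.rel_inner hrel
        (isClassFunction_of_isCharacter (isCharacter_of_isIrrCharacter ψ.2))
      rw [hr, hr] at this
      exact_mod_cast this)
    η ⟨ν₁, hν₁ne⟩ ⟨ν₂, hν₂ne⟩ ⟨μ, hμne⟩ ⟨μ', hμ'ne⟩
    (by
      rw [hr0]
      show Cfsg.classInner (fam ν₁) _ ≠ 0
      rw [hfam_ν₁]
      exact hϑc)
    (by
      by_contra h
      rw [← ne_eq, hr0] at h
      exact hν₂S (hηw ν₂ h))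
    (by
      by_contra h
      rw [← ne_eq, hr0] at h
      exact hμS (hηw μ h))
    (by
      by_contra h
      rw [← ne_eq, hr0] at h
      exact hμ'S (hηw μ' h))
    (by
      show d.rd (fam μ) (fam μ') = 0
      rcases d.rd_cases (fam μ) (fam μ') with h | h
      · exfalso
        obtain ⟨n, hn⟩ := d.rel_wt (d.rel_symm h.1) (hfam_w μ') (hfam_w μ)
          (by rw [hfam_one]; exact hϑ1)
        apply hμ'O
        rw [hn]
        exact d.mem_orbit μ n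
      · exact h.2)
  -- Step 8 : the contradiction
  have hrξ : r ⟨ν₂, hν₂ne⟩ ξ ≠ 0 := by
    rw [hr0]
    exact hξϑ₂
  by_cases hξη' : ξ = η'
  · have hA1 : (fun c : ↥d.C => Cfsg.indFun d.C (fam ν₁ - fam ν₂) c)
        = d.Psi (fam ν₁) - d.Psi (fam ν₂) := by
      funext c
      rw [d.indFun_res _ (hfam_van _ _), d.Psi_sub]
    have hη'C : (fun c : ↥d.C => (η' : G → ℂ) c)
        = (fun c : ↥d.C => (η : G → ℂ) c) - (d.Psi (fam ν₁) - d.Psi (fam ν₂)) := by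
      rw [← hA1]
      funext c
      rw [hη']
      rfl
    have h3 : Cfsg.classInner (fun _ : ↥d.C => (1 : ℂ)) (fun c : ↥d.C => (η' : G → ℂ) c)
        = Cfsg.classInner (fun _ : ↥d.C => (1 : ℂ)) (fun c : ↥d.C => (η : G → ℂ) c) := by
      rw [hη'C, classInner_sub_right, classInner_sub_right, d.inner_one_Psi (hfam_w ν₁) hν₁ne,
        d.inner_one_Psi (hfam_w ν₂) hν₂ne]
      simp
    rw [← hξη', hξ1] at h3
    exact hηC h3.symm
  · have hall := hcomb ξ hξη' hrξ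
    set S₁₂ := Finset.image₂ (fun u v : ↥d.P →* ℂˣ => u * v⁻¹) O₁ (d.orbit lam) with hS₁₂
    have hsub : (Finset.univ : Finset (↥d.P →* ℂˣ)) ⊆ insert 1 S₁₂ := by
      intro κ' _
      by_cases h1 : κ' = 1
      · rw [h1]
        exact Finset.mem_insert_self _ _
      · apply Finset.mem_insert_of_mem
        have h2 := hall ⟨κ', h1⟩
        rw [hr0] at h2
        obtain ⟨a, b, hab⟩ := hξw κ' h2
        rw [hab]
        exact Finset.mem_image₂_of_mem (d.mem_orbit lam1 a) (d.mem_orbit lam b)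
    have hc1 := Finset.card_le_card hsub
    rw [Finset.card_univ] at hc1
    have hc2 : (insert 1 S₁₂).card ≤ x * x + 1 := by
      calc (insert 1 S₁₂).card ≤ S₁₂.card + 1 := Finset.card_insert_le _ _
        _ ≤ O₁.card * (d.orbit lam).card + 1 :=
          Nat.add_le_add_right (Finset.card_image₂_le _ _ _) 1
        _ ≤ x * x + 1 := Nat.add_le_add_right (Nat.mul_le_mul (horb lam1) (horb lam)) 1
    omega

end Data

end Cfsg.Agent.Lib.Helper82.BL
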