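import Mathlib
import Cfsg.Prelude.Def_Blocks
import Cfsg.Agent.Lib.Helper82.BLMain
import Cfsg.Agent.Lib.Helper82.TISylow

/-!
# Sylow subgroups whose nonidentity elements all have the centralizer of the whole subgroup
-/

set_option autoImplicit false

namespace Cfsg.Agent.Lib.Helper82.BL

open scoped ComplexConjugate BigOperators Pointwise
open Cfsg.Agent.Lib.Helper80

section struct

variable {G : Type*} [Group G] [Finite G] (p : ℕ) [Fact p.Prime] (P : Sylow p G)

theorem P_le_centralizer
    (hstar : ∀ x ∈ (P : Subgroup G), x ≠ 1 → Subgroup.centralizer ({x} : Set G)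
      = Subgroup.centralizer ((P : Subgroup G) : Set G))
    (hnt : Nontrivial ↥(P : Subgroup G)) :
    (P : Subgroup G) ≤ Subgroup.centralizer ((P : Subgroup G) : Set G) := by
  haveI := hnt
  haveI := IsPGroup.center_nontrivial P.isPGroup'
  obtain ⟨z, hz⟩ := exists_ne (1 : ↥(Subgroup.center ↥(P : Subgroup G)))
  have hz1 : ((z : ↥(P : Subgroup G)) : G) ≠ 1 := by
    intro h
    apply hz
    apply Subtype.ext
    apply Subtype.ext
    simpa using h
  have hzP : ((z : ↥(P : Subgroup G)) : G) ∈ (P : Subgroup G) := (z : ↥(P : Subgroup G)).2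
  intro y hy
  rw [← hstar _ hzP hz1, Subgroup.mem_centralizer_iff]
  intro h hh
  rw [Set.mem_singleton_iff] at hh
  rw [hh]
  have := Subgroup.mem_center_iff.1 z.2 ⟨y, hy⟩
  exact (congrArg Subtype.val this).symm

theorem conj_mem_of_conj_mem
    (hstar : ∀ x ∈ (P : Subgroup G), x ≠ 1 → Subgroup.centralizer ({x} : Set G)
      = Subgroup.centralizer ((P : Subgroup G) : Set G))
    (hPC : (P : Subgroup G) ≤ Subgroup.centralizer ((P : Subgroup G) : Set G))
    {z x : G} (hz : z ∈ (P : Subgroup G)) (hz1 : z ≠ 1) (hx : x * z * x⁻¹ ∈ (P : Subgroup G)) :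
    ∀ v ∈ (P : Subgroup G), x * v * x⁻¹ ∈ (P : Subgroup G) := by
  intro v hv
  have hz' : x * z * x⁻¹ ≠ 1 := by
    intro h
    apply hz1
    have := congrArg (fun t => x⁻¹ * t * x) h
    simpa [mul_assoc] using this
  have h1 : x * v * x⁻¹ ∈ Subgroup.centralizer ({x * z * x⁻¹} : Set G) := by
    rw [Subgroup.mem_centralizer_iff]
    intro h hh
    rw [Set.mem_singleton_iff] at hh
    rw [hh]
    have hzv : z * v = v * z := (Subgroup.mem_centralizer_iff.1 (hPC hv)) z hz
    calc x * z * x⁻¹ * (x * v * x⁻¹) = x * (z * v) * x⁻¹ := by group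
      _ = x * (v * z) * x⁻¹ := by rw [hzv]
      _ = x * v * x⁻¹ * (x * z * x⁻¹) := by group
  rw [hstar _ hx hz'] at h1
  apply TISylow.mem_sylow_of_mem_normalizer p P (Subgroup.centralizer_le_normalizer _ h1)
  have hQ : IsPGroup p ((P : Subgroup G).map (MulAut.conj x).toMonoidHom) := P.isPGroup'.map _
  refine hQ.to_le ?_
  rw [Subgroup.zpowers_le]
  exact ⟨v, hv, by simp⟩

theorem mem_normalizer_of_conj_mem
    (hstar : ∀ x ∈ (P : Subgroup G), x ≠ 1 → Subgroup.centralizer ({x} : Set G)
      = Subgroup.centralizer ((P : Subgroup G) : Set G))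
    (hPC : (P : Subgroup G) ≤ Subgroup.centralizer ((P : Subgroup G) : Set G))
    {z x : G} (hz : z ∈ (P : Subgroup G)) (hz1 : z ≠ 1) (hx : x * z * x⁻¹ ∈ (P : Subgroup G)) :
    x ∈ Subgroup.normalizer ((P : Subgroup G) : Set G) := by
  rw [Subgroup.mem_normalizer_iff]
  intro h
  constructor
  · exact conj_mem_of_conj_mem p P hstar hPC hz hz1 hx h
  · intro hh
    have hz' : x * z * x⁻¹ ≠ 1 := by
      intro h
      apply hz1
      have := congrArg (fun t => x⁻¹ * t * x) h
      simpa [mul_assoc] using this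
    have := conj_mem_of_conj_mem p P hstar hPC hx hz' (x := x⁻¹)
      (by simpa [mul_assoc] using hz) (x * h * x⁻¹) hh
    simpa [mul_assoc] using this

theorem hTI_of_hstar
    (hstar : ∀ x ∈ (P : Subgroup G), x ≠ 1 → Subgroup.centralizer ({x} : Set G)
      = Subgroup.centralizer ((P : Subgroup G) : Set G))
    (hPC : (P : Subgroup G) ≤ Subgroup.centralizer ((P : Subgroup G) : Set G)) :
    ∀ g : G, g ∉ Subgroup.normalizer ((P : Subgroup G) : Set G) →
      (P : Subgroup G) ⊓ (MulAut.conj g • (P : Subgroup G)) = ⊥ := by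
  intro g hg
  rw [eq_bot_iff]
  intro y hy
  rw [Subgroup.mem_bot]
  by_contra hy1
  obtain ⟨hyP, hyg⟩ := Subgroup.mem_inf.1 hy
  rw [Subgroup.mem_pointwise_smul_iff_inv_smul_mem] at hyg
  have hw : g⁻¹ * y * g ∈ (P : Subgroup G) := by
    simpa [MulAut.smul_def, MulAut.conj_inv_apply] using hyg
  apply hg
  have hw1 : g⁻¹ * y * g ≠ 1 := by
    intro h
    apply hy1
    have := congrArg (fun t => g * t * g⁻¹) h
    simpa [mul_assoc] using this
  exact mem_normalizer_of_conj_mem p P hstar hPC hw hw1 (x := g) (by simpa [mul_assoc] using hyP)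

/-- The data attached to a Sylow subgroup with uniform centralizers. -/
noncomputable def mkData
    (hstar : ∀ x ∈ (P : Subgroup G), x ≠ 1 → Subgroup.centralizer ({x} : Set G)
      = Subgroup.centralizer ((P : Subgroup G) : Set G))
    (hPC : (P : Subgroup G) ≤ Subgroup.centralizer ((P : Subgroup G) : Set G)) : Data G p :=
  have hcent : ∀ (a : ↥(P : Subgroup G))
      (c : ↥(Subgroup.centralizer ((P : Subgroup G) : Set G))),
      Subgroup.inclusion hPC a * c = c * Subgroup.inclusion hPC a := fun a c =>
    Subtype.ext ((Subgroup.mem_centralizer_iff.1 c.2) a a.2)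
  have hQ : ((P.subtype hPC : Sylow p ↥(Subgroup.centralizer ((P : Subgroup G) : Set G))) :
      Subgroup ↥(Subgroup.centralizer ((P : Subgroup G) : Set G)))
      = (Subgroup.inclusion hPC).range := by
    rw [Sylow.coe_subtype, Subgroup.inclusion_range]
  have hex := exists_hat p (Subgroup.inclusion hPC) (Subgroup.inclusion_injective hPC) hcent
    (P.subtype hPC) hQ
  { P := (P : Subgroup G)
    C := Subgroup.centralizer ((P : Subgroup G) : Set G)
    N := Subgroup.normalizer ((P : Subgroup G) : Set G)
    hPC := hPC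
    hCN := Subgroup.centralizer_le_normalizer _
    hcent := fun y hy c hc => (Subgroup.mem_centralizer_iff.1 hc) y hy
    hNC := by
      intro n hn c hc
      rw [Subgroup.mem_centralizer_iff]
      intro h hh
      have h1 : n * h * n⁻¹ ∈ (P : Subgroup G) := (Subgroup.mem_normalizer_iff.1 hn h).1 hh
      have h2 := (Subgroup.mem_centralizer_iff.1 hc) _ h1
      calc h * (n⁻¹ * c * n) = n⁻¹ * (n * h * n⁻¹ * c) * n := by group
        _ = n⁻¹ * (c * (n * h * n⁻¹)) * n := by rw [h2]
        _ = n⁻¹ * c * n * h := by group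
    hNP := by
      intro n hn y hy
      refine (Subgroup.mem_normalizer_iff.1 hn (n⁻¹ * y * n)).2 ?_
      have : n * (n⁻¹ * y * n) * n⁻¹ = y := by group
      rw [this]
      exact hy
    hTI := by
      intro c hc hdiv x hx
      have hord : orderOf c ≠ 0 := (orderOf_pos c).ne'
      have hz_ord : orderOf (c ^ (orderOf c / p)) = p := orderOf_pow_orderOf_div hord hdiv
      have hzC : c ^ (orderOf c / p) ∈ Subgroup.centralizer ((P : Subgroup G) : Set G) :=
        pow_mem hc _
      have hzp : IsPGroup p (Subgroup.zpowers (c ^ (orderOf c / p))) := by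
        apply IsPGroup.of_card (n := 1)
        rw [Nat.card_zpowers, hz_ord, pow_one]
      have hzP : c ^ (orderOf c / p) ∈ (P : Subgroup G) :=
        TISylow.mem_sylow_of_mem_normalizer p P (Subgroup.centralizer_le_normalizer _ hzC) hzp
      have hz1 : c ^ (orderOf c / p) ≠ 1 := by
        intro h
        rw [h, orderOf_one] at hz_ord
        exact (Fact.out : p.Prime).one_lt.ne hz_ord
      have hwC : x * c ^ (orderOf c / p) * x⁻¹
          ∈ Subgroup.centralizer ((P : Subgroup G) : Set G) := by
        rw [← conj_pow]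
        exact pow_mem hx _
      have hwp : IsPGroup p (Subgroup.zpowers (x * c ^ (orderOf c / p) * x⁻¹)) := by
        have hQ' : IsPGroup p ((Subgroup.zpowers (c ^ (orderOf c / p))).map
            (MulAut.conj x).toMonoidHom) := hzp.map _
        refine hQ'.to_le ?_
        rw [Subgroup.zpowers_le]
        exact ⟨c ^ (orderOf c / p), Subgroup.mem_zpowers _, by simp⟩
      have hwP : x * c ^ (orderOf c / p) * x⁻¹ ∈ (P : Subgroup G) :=
        TISylow.mem_sylow_of_mem_normalizer p P (Subgroup.centralizer_le_normalizer _ hwC) hwp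
      exact mem_normalizer_of_conj_mem p P hstar hPC hzP hz1 hwP
    hfree := by
      intro n _ hnC y hy hfix
      by_contra hy1
      apply hnC
      rw [← hstar y hy hy1, Subgroup.mem_centralizer_iff]
      intro h hh
      rw [Set.mem_singleton_iff] at hh
      rw [hh]
      calc y * n = n * (n⁻¹ * y * n) := by group
        _ = n * y := by rw [hfix]
    hat := Classical.choose hex
    hat_inc := (Classical.choose_spec hex).1
    hat_reg := fun ω c hc => (Classical.choose_spec hex).2 ω c (by
      rwa [Subgroup.orderOf_coe] at hc) }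

end struct

end Cfsg.Agent.Lib.Helper82.BL
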