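import Mathlib
import Cfsg.Prelude.Def_Blocks
import Cfsg.Agent.Lib.Helper82.BLStruct
import Cfsg.Agent.Lib.Helper82.AbelianSylow
import Cfsg.Agent.Lib.Helper79.Linear

/-!
# Irreducible characters of small degree and Sylow subgroups with uniform centralizers

If every nonidentity element of the Sylow `p`-subgroup `P` of `G` has the centralizer of `P`,
no proper normal subgroup of `G` contains `P`, and `χ` is a nonprincipal irreducible character
with `χ(1)² + 1 < |P|`, then `G` has a normal subgroup of index `|P|` and `χ` is linear.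
-/

set_option autoImplicit false
set_option linter.style.haveILetI false

namespace Cfsg.Agent.Lib.Helper82.BL

open scoped ComplexConjugate BigOperators Pointwise
open Cfsg.Agent.Lib.Helper80

theorem small_degree_alt {G : Type*} [Group G] [Finite G] (p : ℕ) (hp : p.Prime) (P : Sylow p G)
    (hstar : ∀ x ∈ (P : Subgroup G), x ≠ 1 → Subgroup.centralizer ({x} : Set G)
      = Subgroup.centralizer ((P : Subgroup G) : Set G))
    (n : ℕ) (hn : Nat.card P = p ^ n) (χ : G → ℂ) (hχ : Cfsg.IsIrrCharacter G χ)
    (h1 : χ ≠ fun _ => 1) (hdeg : Cfsg.charDegree χ ^ 2 + 1 < p ^ n)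
    (hdag : ∀ K : Subgroup G, K.Normal → (P : Subgroup G) ≤ K → K = ⊤) :
    (∃ N : Subgroup G, N.Normal ∧ N.index = p ^ n) ∧ Cfsg.charDegree χ = 1 := by
  classical
  haveI := Fact.mk hp
  letI : Fintype G := Fintype.ofFinite G
  have hn' : Nat.card ↥(P : Subgroup G) = p ^ n := hn
  have hcardP : 1 < Nat.card ↥(P : Subgroup G) := by omega
  have hnt : Nontrivial ↥(P : Subgroup G) := Finite.one_lt_card_iff_nontrivial.1 hcardP
  have hPC := P_le_centralizer p P hstar hnt
  have hTI := hTI_of_hstar p P hstar hPC
  have hχc := isCharacter_of_isIrrCharacter hχ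
  have hχ' := hχ
  have hker : ∀ ψ : G → ℂ, Cfsg.IsIrrCharacter G ψ →
      (∀ y : ↥(P : Subgroup G), ψ (y : G) = ψ 1) → ψ = fun _ => 1 := by
    intro ψ hψ hy
    obtain ⟨K, hKn, hK⟩ := exists_ker_subgroup (isCharacter_of_isIrrCharacter hψ)
    have hPK : (P : Subgroup G) ≤ K := fun y hyP => (hK y).2 (hy ⟨y, hyP⟩)
    have hKtop := hdag K hKn hPK
    have hall : ∀ g, ψ g = ψ 1 := fun g => (hK g).1 (hKtop ▸ Subgroup.mem_top g)
    have hinner : Cfsg.classInner ψ (fun _ : G => (1 : ℂ)) = ψ 1 := by
      unfold Cfsg.classInner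
      simp only [hall, map_one, mul_one, Finset.sum_const, Finset.card_univ, nsmul_eq_mul]
      rw [← Nat.card_eq_fintype_card]
      have : (Nat.card G : ℂ) ≠ 0 := by exact_mod_cast (Nat.card_pos (α := G)).ne'
      field_simp
    have hirr := classInner_irr_fun hψ (isIrrCharacter_one (G := G))
    rw [hinner] at hirr
    by_contra hne
    rw [if_neg hne] at hirr
    exact char_one_ne_zero hψ hirr
  obtain ⟨dd, ρ, hirr, hρ⟩ := hχ
  have hd : Cfsg.charDegree χ = Module.finrank ℂ (Fin dd → ℂ) := by
    rw [← hρ]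
    unfold Cfsg.charDegree
    rw [Representation.char_one]
    simp
  have hdim : Module.finrank ℂ (Fin dd → ℂ) ^ 2 ≤ Nat.card P := by
    rw [← hd, hn]
    omega
  by_cases hNC : Subgroup.normalizer ((P : Subgroup G) : Set G)
      ≤ Subgroup.centralizer ((P : Subgroup G) : Set G)
  · constructor
    · refine ⟨(MonoidHom.transferSylow P hNC).ker, inferInstance, ?_⟩
      have hcomp := MonoidHom.ker_transferSylow_isComplement' P hNC
      rw [hcomp.symm.index_eq_card]
      exact hn
    · have hfix : ∀ y ∈ (P : Subgroup G), ∀ g : G, ρ (g * y * g⁻¹) = ρ y := by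
        intro y hy g
        have hT : ∀ m ∈ Subgroup.normalizer ((P : Subgroup G) : Set G),
            Representation.linHom ρ ρ m (ρ y) = ρ y := by
          intro m hm
          rw [Representation.linHom_apply]
          have hcomm : y * m = m * y := (Subgroup.mem_centralizer_iff.1 (hNC hm)) y hy
          rw [← Module.End.mul_eq_comp, ← Module.End.mul_eq_comp, ← map_mul, ← map_mul]
          congr 1
          rw [← mul_assoc, ← hcomm, mul_assoc, mul_inv_cancel, mul_one]
        have h2 := TISylow.linHom_fixed_of_fixed_normalizer p P hTI ρ hdim (ρ y) hT g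
        rw [Representation.linHom_apply, ← Module.End.mul_eq_comp, ← Module.End.mul_eq_comp,
          ← map_mul, ← map_mul] at h2
        rw [← h2]
        congr 1
        group
      obtain ⟨K, hKn, hK⟩ := exists_ker_subgroup hχc
      have hcommK : ∀ y ∈ (P : Subgroup G), ∀ g : G, g * y * g⁻¹ * y⁻¹ ∈ K := by
        intro y hy g
        rw [hK, ← hρ]
        show LinearMap.trace ℂ _ (ρ (g * y * g⁻¹ * y⁻¹)) = LinearMap.trace ℂ _ (ρ 1)
        rw [map_mul ρ (g * y * g⁻¹) y⁻¹, hfix y hy g, ← map_mul, mul_inv_cancel]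
      haveI := hKn
      have hPZ : (P : Subgroup G) ≤ (Subgroup.center (G ⧸ K)).comap (QuotientGroup.mk' K) := by
        intro y hy
        show (QuotientGroup.mk' K y) ∈ Subgroup.center (G ⧸ K)
        rw [Subgroup.mem_center_iff]
        intro q
        obtain ⟨g, rfl⟩ := QuotientGroup.mk_surjective q
        show ((g * y : G) : G ⧸ K) = ((y * g : G) : G ⧸ K)
        rw [QuotientGroup.eq]
        have h3 := hcommK y hy g⁻¹
        have h4 := hKn.conj_mem _ h3 y⁻¹
        convert h4 using 1
        group
      have hZtop := hdag _ inferInstance hPZ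
      have hab : ∀ a b : G ⧸ K, a * b = b * a := by
        intro a b
        obtain ⟨g, rfl⟩ := QuotientGroup.mk_surjective a
        have hg : g ∈ (Subgroup.center (G ⧸ K)).comap (QuotientGroup.mk' K) :=
          hZtop ▸ Subgroup.mem_top g
        exact (Subgroup.mem_center_iff.1 hg b).symm
      obtain ⟨ψ, hψ, hψχ⟩ := exists_isIrrCharacter_deflate K hχ' (fun x hx => (hK x).1 hx)
      have h1' := Cfsg.Agent.Lib.Helper82.irr_one_eq_one_of_comm hab hψ
      have h5 : χ 1 = 1 := by
        rw [← hψχ 1]
        exact h1'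
      unfold Cfsg.charDegree
      rw [h5]
      simp
  · exfalso
    let d := mkData p P hstar hPC
    letI : Fintype ↥d.C := Fintype.ofFinite _
    letI : Fintype ↥d.N := Fintype.ofFinite _
    haveI : Finite ↥d.P := (inferInstance : Finite ↥(P : Subgroup G))
    have hNC' : ∃ m : ↥d.N, (m : G) ∉ d.C := by
      by_contra h
      push Not at h
      exact hNC (fun g hg => h ⟨g, hg⟩)
    have hχN : Cfsg.classInner (fun m : ↥d.N => χ m) (fun m : ↥d.N => χ m) = 1 := by
      have h2 := TISylow.classInner_restrict_eq p P hTI ρ hdim d.N le_rfl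
      rw [hρ] at h2
      rw [← h2]
      exact classInner_self hχ'
    have hcard : Cfsg.charDegree χ ^ 2 + 1 < Nat.card (↥d.P →* ℂˣ) := by
      have h3 : Nat.card (↥(P : Subgroup G) →* ℂˣ) = Nat.card ↥(P : Subgroup G) := by
        rw [Cfsg.Agent.Lib.Helper79.card_monoidHom_units]
        have hbot : commutator ↥(P : Subgroup G) = ⊥ := by
          rw [commutator_def, Subgroup.commutator_eq_bot_iff_le_centralizer]
          intro a _
          rw [Subgroup.mem_centralizer_iff]
          intro b _
          exact Subtype.ext ((Subgroup.mem_centralizer_iff.1 (hPC a.2)) b b.2)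
        rw [hbot, Subgroup.index_bot]
      show Cfsg.charDegree χ ^ 2 + 1 < Nat.card (↥(P : Subgroup G) →* ℂˣ)
      rw [h3, hn']
      exact hdeg
    exact d.main_contra hker hNC' χ hχ' h1 hχN hcard

end Cfsg.Agent.Lib.Helper82.BL
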