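import Mathlib
import Cfsg.Prelude.Def_Blocks
import Cfsg.Agent.Lib.Helper82.BLFinal

/-!
# Faithful characters of small degree and Sylow subgroups with uniform centralizers

If every nonidentity element of the Sylow `p`-subgroup `P` of `G` has the centralizer of `P`
and `G` has a faithful character `χ` with `χ(1)² + 1 < |P|`, then `P` is normal in `G`.
-/

set_option autoImplicit false
set_option linter.style.haveILetI false

namespace Cfsg.Agent.Lib.Helper82.BL

open scoped ComplexConjugate BigOperators
open Cfsg.Agent.Lib.Helper80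

universe u

section sub

variable {G : Type u} [Group G] [Finite G] (p : ℕ) [Fact p.Prime] (P : Sylow p G)
  (K : Subgroup G) (hPK : (P : Subgroup G) ≤ K)

theorem mem_subtype_iff (x : ↥K) :
    x ∈ ((P.subtype hPK : Sylow p ↥K) : Subgroup ↥K) ↔ (x : G) ∈ (P : Subgroup G) := by
  rw [Sylow.coe_subtype]
  exact Subgroup.mem_subgroupOf

theorem hstar_subtype
    (hstar : ∀ x ∈ (P : Subgroup G), x ≠ 1 → Subgroup.centralizer ({x} : Set G)
      = Subgroup.centralizer ((P : Subgroup G) : Set G)) :
    ∀ x ∈ ((P.subtype hPK : Sylow p ↥K) : Subgroup ↥K), x ≠ 1 →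
      Subgroup.centralizer ({x} : Set ↥K)
        = Subgroup.centralizer ((((P.subtype hPK : Sylow p ↥K) : Subgroup ↥K)) : Set ↥K) := by
  intro x hx hx1
  have hxP : (x : G) ∈ (P : Subgroup G) := (mem_subtype_iff p P K hPK x).1 hx
  have hx1' : (x : G) ≠ 1 := fun h => hx1 (Subtype.ext h)
  ext c
  rw [Subgroup.mem_centralizer_iff, Subgroup.mem_centralizer_iff]
  constructor
  · intro h y hy
    have h1 : (c : G) ∈ Subgroup.centralizer ({(x : G)} : Set G) := by
      rw [Subgroup.mem_centralizer_iff]
      intro z hz
      rw [Set.mem_singleton_iff] at hz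
      rw [hz]
      exact congrArg Subtype.val (h x rfl)
    rw [hstar _ hxP hx1'] at h1
    exact Subtype.ext ((Subgroup.mem_centralizer_iff.1 h1) (y : G)
      ((mem_subtype_iff p P K hPK y).1 hy))
  · intro h y hy
    rw [Set.mem_singleton_iff] at hy
    rw [hy]
    exact h x hx

theorem card_subtype : Nat.card (P.subtype hPK : Sylow p ↥K) = Nat.card P :=
  Nat.card_congr (Subgroup.subgroupOfEquivOfLe hPK).toEquiv

theorem normal_of_subtype_normal (hKn : K.Normal)
    (hQn : ((P.subtype hPK : Sylow p ↥K) : Subgroup ↥K).Normal) : (P : Subgroup G).Normal := by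
  constructor
  intro y hy g
  have hwK : g * y * g⁻¹ ∈ K := hKn.conj_mem y (hPK hy) g
  have hnorm : Subgroup.normalizer ((((P.subtype hPK : Sylow p ↥K) : Subgroup ↥K)) : Set ↥K) = ⊤ :=
    Subgroup.normalizer_eq_top_iff.2 hQn
  have hord : orderOf (⟨g * y * g⁻¹, hwK⟩ : ↥K) = orderOf y := by
    rw [← Subgroup.orderOf_coe]
    exact orderOf_injective (MulAut.conj g).toMonoidHom (MulAut.conj g).injective y
  obtain ⟨j, hj⟩ := (IsPGroup.iff_orderOf.1 P.isPGroup') ⟨y, hy⟩
  rw [Subgroup.orderOf_mk] at hj
  have hwp : IsPGroup p (Subgroup.zpowers (⟨g * y * g⁻¹, hwK⟩ : ↥K)) := by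
    apply IsPGroup.of_card (n := j)
    rw [Nat.card_zpowers, hord, hj]
  have h5 := TISylow.mem_sylow_of_mem_normalizer p (P.subtype hPK)
    (hnorm ▸ Subgroup.mem_top _) hwp
  exact (mem_subtype_iff p P K hPK _).1 h5

end sub

theorem normal_of_faithful_small (p : ℕ) (hp : p.Prime) :
    ∀ (k : ℕ) (G : Type u) [Group G] [Finite G], Nat.card G = k → ∀ (P : Sylow p G),
      (∀ x ∈ (P : Subgroup G), x ≠ 1 → Subgroup.centralizer ({x} : Set G)
        = Subgroup.centralizer ((P : Subgroup G) : Set G)) →
      ∀ (n : ℕ), Nat.card P = p ^ n → ∀ (χ : G → ℂ), Cfsg.IsCharacter G χ →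
      (∀ g : G, χ g = χ 1 → g = 1) →
      Cfsg.charDegree χ ^ 2 + 1 < p ^ n → (P : Subgroup G).Normal := by
  intro k
  induction k using Nat.strong_induction_on with
  | _ k ih =>
    intro G _ _ hk P hstar n hn χ hχ hfaith hdeg
    classical
    haveI := Fact.mk hp
    letI : Fintype G := Fintype.ofFinite G
    letI : Fintype (Cfsg.IrrCharacter G) := Fintype.ofFinite _
    have hKn : (Subgroup.normalClosure ((P : Subgroup G) : Set G)).Normal :=
      Subgroup.normalClosure_normal
    have hPK : (P : Subgroup G) ≤ Subgroup.normalClosure ((P : Subgroup G) : Set G) :=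
      Subgroup.subset_normalClosure
    by_cases hKtop : Subgroup.normalClosure ((P : Subgroup G) : Set G) = ⊤
    · have hdag : ∀ M : Subgroup G, M.Normal → (P : Subgroup G) ≤ M → M = ⊤ := by
        intro M hM hPM
        haveI := hM
        have h1 : Subgroup.normalClosure ((P : Subgroup G) : Set G) ≤ M :=
          Subgroup.normalClosure_le_normal hPM
        rw [hKtop] at h1
        exact top_le_iff.1 h1
      obtain ⟨m, hm, hexp⟩ := character_expansion hχ
      have hsum := charDegree_eq_sum hχ m hexp
      have hlin : ∀ ψ : Cfsg.IrrCharacter G, m ψ ≠ 0 → (ψ : G → ℂ) 1 = 1 := by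
        intro ψ hmψ
        by_cases hψ1 : (ψ : G → ℂ) = fun _ => 1
        · rw [hψ1]
        · have hle : Cfsg.charDegree (ψ : G → ℂ) ≤ Cfsg.charDegree χ := by
            rw [hsum]
            calc Cfsg.charDegree (ψ : G → ℂ) ≤ m ψ * Cfsg.charDegree (ψ : G → ℂ) :=
                  Nat.le_mul_of_pos_left _ (Nat.pos_of_ne_zero hmψ)
              _ ≤ _ := Finset.single_le_sum
                  (f := fun ψ' : Cfsg.IrrCharacter G => m ψ' * Cfsg.charDegree (ψ' : G → ℂ))
                  (fun _ _ => Nat.zero_le _) (Finset.mem_univ ψ)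
          have hdeg' : Cfsg.charDegree (ψ : G → ℂ) ^ 2 + 1 < p ^ n := by
            have := Nat.pow_le_pow_left hle 2
            omega
          have h := (small_degree_alt p hp P hstar n hn (ψ : G → ℂ) ψ.2 hψ1 hdeg' hdag).2
          rw [char_one_eq_charDegree (isCharacter_of_isIrrCharacter ψ.2), h]
          simp
      have hcomm : ∀ a b : G, a * b = b * a := by
        intro a b
        have hmem : a * b * a⁻¹ * b⁻¹ ∈ commutator G := by
          rw [commutator_def, ← commutatorElement_def]
          exact Subgroup.commutator_mem_commutator (Subgroup.mem_top a) (Subgroup.mem_top b)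
        have hc : a * b * a⁻¹ * b⁻¹ = 1 := by
          apply hfaith
          rw [hexp]
          simp only [Finset.sum_apply, Pi.smul_apply, smul_eq_mul]
          refine Finset.sum_congr rfl (fun ψ _ => ?_)
          by_cases hmψ : m ψ = 0
          · rw [hmψ]
            simp
          · congr 1
            rw [hlin ψ hmψ]
            exact Cfsg.Agent.Lib.Helper79.linear_irr_commutator ψ.2 (hlin ψ hmψ) hmem
        have h2 := congrArg (fun t => t * b * a) hc
        simpa [mul_assoc] using h2
      constructor
      intro y hy g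
      rw [hcomm g y, mul_inv_cancel_right]
      exact hy
    · have hcardK : Nat.card ↥(Subgroup.normalClosure ((P : Subgroup G) : Set G)) < k := by
        have h1 := Subgroup.card_mul_index (Subgroup.normalClosure ((P : Subgroup G) : Set G))
        have h2 : (Subgroup.normalClosure ((P : Subgroup G) : Set G)).index ≠ 1 :=
          fun h => hKtop (Subgroup.index_eq_one.1 h)
        have h3 : (Subgroup.normalClosure ((P : Subgroup G) : Set G)).index ≠ 0 :=
          Subgroup.index_ne_zero_of_finite
        rw [← hk, ← h1]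
        have h4 : 2 ≤ (Subgroup.normalClosure ((P : Subgroup G) : Set G)).index := by omega
        have hpos : 0 < Nat.card ↥(Subgroup.normalClosure ((P : Subgroup G) : Set G)) :=
          Nat.card_pos
        nlinarith
      have hQn := ih _ hcardK _ rfl (P.subtype hPK) (hstar_subtype p P _ hPK hstar) n
        ((card_subtype p P _ hPK).trans hn)
        (fun c : ↥(Subgroup.normalClosure ((P : Subgroup G) : Set G)) => χ c)
        (isCharacter_restrict _ hχ) (fun c hc => Subtype.ext (hfaith c hc)) hdeg
      exact normal_of_subtype_normal p P _ hPK hKn hQn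

end Cfsg.Agent.Lib.Helper82.BL
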