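import Mathlib
import Cfsg.Prelude.Def_Characters
import Cfsg.Agent.Lib.Helper75.CharInd
import Cfsg.Agent.Lib.Helper75.CharDecomp
import Cfsg.Agent.Lib.Helper80.CharOps
import Cfsg.Agent.Lib.Helper80.Schur

set_option autoImplicit false
set_option linter.unusedSectionVars false
set_option linter.style.haveILetI false

/-!
Averaging a character over the left translates by a normal subgroup `H`: the average is the
part of the character with `H` in the kernel.
-/

namespace Cfsg.Agent.Lib.Helper82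

open Cfsg.Agent.Lib.Helper3 Cfsg.Agent.Lib.Helper75
open scoped ComplexConjugate

universe u

/-- a complex number with real part `r` and norm at most `r` is `r` -/
theorem eq_ofReal_of_re_eq_of_norm_le {z : ℂ} {r : ℝ} (h1 : z.re = r) (h2 : ‖z‖ ≤ r) :
    z = (r : ℂ) := by
  have hr : 0 ≤ r := le_trans (norm_nonneg z) h2
  apply Complex.ext
  · simpa using h1
  · have h11 : ‖z‖ ^ 2 = z.re ^ 2 + z.im ^ 2 := by
      rw [← Complex.normSq_eq_norm_sq, Complex.normSq_apply]
      ring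
    have h12 : ‖z‖ ^ 2 ≤ r ^ 2 := pow_le_pow_left₀ (norm_nonneg _) h2 2
    rw [h11, h1] at h12
    have h13 : z.im ^ 2 ≤ 0 := by linarith
    have h14 : z.im = 0 := by
      have := sq_nonneg z.im
      exact pow_eq_zero_iff (two_ne_zero) |>.1 (le_antisymm h13 this)
    simpa using h14

/-- if complex numbers of norm at most `r` sum to `card * r`, they all equal `r` -/
theorem eq_of_sum_eq_card_mul {ι : Type*} [Fintype ι] (a : ι → ℂ) (r : ℝ)
    (hle : ∀ i, ‖a i‖ ≤ r) (hsum : ∑ i, a i = (Fintype.card ι : ℂ) * (r : ℂ)) :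
    ∀ i, a i = (r : ℂ) := by
  have h1 : ∑ i, (r - (a i).re) = 0 := by
    have h2 := congrArg Complex.re hsum
    simp only [Complex.re_sum, Complex.mul_re, Complex.natCast_re, Complex.natCast_im,
      Complex.ofReal_re, Complex.ofReal_im, mul_zero, sub_zero] at h2
    rw [Finset.sum_sub_distrib, h2, Finset.sum_const, Finset.card_univ, nsmul_eq_mul]
    ring
  have h3 : ∀ i ∈ (Finset.univ : Finset ι), 0 ≤ r - (a i).re := by
    intro i _
    have := Complex.re_le_norm (a i)
    have := hle i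
    linarith
  intro i
  have h4 := (Finset.sum_eq_zero_iff_of_nonneg h3).1 h1 i (Finset.mem_univ i)
  exact eq_ofReal_of_re_eq_of_norm_le (by linarith) (hle i)

section Avg

variable {N : Type u} [Group N] [Fintype N] (H : Subgroup N) [Fintype H]

/-- the average of a function over the left translates by a subgroup -/
noncomputable def subAvg (φ : N → ℂ) : N → ℂ :=
  fun g => (Nat.card H : ℂ)⁻¹ * ∑ h : H, φ ((h : N) * g)

theorem subAvg_mul_left (φ : N → ℂ) (h : H) (g : N) :
    subAvg H φ ((h : N) * g) = subAvg H φ g := by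
  unfold subAvg
  congr 1
  exact Fintype.sum_equiv (Equiv.mulRight h) _ _ (fun h' => by simp [mul_assoc])

theorem conj_subAvg (φ : N → ℂ) (g : N) :
    conj (subAvg H φ g) = (Nat.card H : ℂ)⁻¹ * ∑ h : H, conj (φ ((h : N) * g)) := by
  unfold subAvg
  rw [map_mul, map_inv₀, map_natCast, map_sum]

theorem subAvg_sum_smul {ι : Type*} (s : Finset ι) (c : ι → ℂ) (φ : ι → N → ℂ) :
    subAvg H (∑ i ∈ s, c i • φ i) = ∑ i ∈ s, c i • subAvg H (φ i) := by
  funext g
  simp only [subAvg, Finset.sum_apply, Pi.smul_apply, smul_eq_mul]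
  rw [Finset.sum_comm, Finset.mul_sum]
  refine Finset.sum_congr rfl (fun i _ => ?_)
  rw [← Finset.mul_sum]
  ring

/-- Pythagoras for the average -/
theorem sum_norm_sq_split (φ : N → ℂ) :
    ∑ g, ‖φ g‖ ^ 2 = ∑ g, ‖subAvg H φ g‖ ^ 2 + ∑ g, ‖φ g - subAvg H φ g‖ ^ 2 := by
  have hH : (Nat.card H : ℂ) ≠ 0 := by exact_mod_cast (Nat.card_pos (α := H)).ne'
  have key : ∑ g, subAvg H φ g * conj (φ g) = ∑ g, subAvg H φ g * conj (subAvg H φ g) := by
    have h1 : ∀ h : H, ∑ g, subAvg H φ g * conj (φ ((h : N) * g)) =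
        ∑ g, subAvg H φ g * conj (φ g) := by
      intro h
      rw [← Equiv.sum_comp (Equiv.mulLeft (h : N)) (fun g => subAvg H φ g * conj (φ g))]
      refine Finset.sum_congr rfl (fun g _ => ?_)
      simp only [Equiv.coe_mulLeft]
      rw [subAvg_mul_left]
    have h2 : ∑ g, subAvg H φ g * conj (subAvg H φ g) =
        (Nat.card H : ℂ)⁻¹ * ∑ h : H, ∑ g, subAvg H φ g * conj (φ ((h : N) * g)) := by
      rw [Finset.sum_comm, Finset.mul_sum]
      refine Finset.sum_congr rfl (fun g _ => ?_)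
      rw [conj_subAvg, ← Finset.mul_sum]
      ring
    rw [h2, Finset.sum_congr rfl (fun h _ => h1 h), Finset.sum_const, Finset.card_univ,
      nsmul_eq_mul, ← Nat.card_eq_fintype_card, ← mul_assoc, inv_mul_cancel₀ hH, one_mul]
  have h3 : ∀ g, ‖φ g‖ ^ 2 = ‖subAvg H φ g‖ ^ 2 + ‖φ g - subAvg H φ g‖ ^ 2 +
      2 * (subAvg H φ g * conj (φ g - subAvg H φ g)).re := by
    intro g
    have := Complex.normSq_add (subAvg H φ g) (φ g - subAvg H φ g)
    rw [add_sub_cancel] at this
    simp only [Complex.normSq_eq_norm_sq] at this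
    exact this
  have h4 : ∑ g, (subAvg H φ g * conj (φ g - subAvg H φ g)).re = 0 := by
    rw [← Complex.re_sum]
    have : ∑ g, subAvg H φ g * conj (φ g - subAvg H φ g) = 0 := by
      simp only [map_sub, mul_sub, Finset.sum_sub_distrib]
      rw [key, sub_self]
    rw [this, Complex.zero_re]
  rw [Finset.sum_congr rfl (fun g _ => h3 g), Finset.sum_add_distrib, Finset.sum_add_distrib,
    ← Finset.mul_sum, h4, mul_zero, add_zero]

/-- a character that does not vanish at `1` has norm at least one -/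
theorem card_le_sum_norm_sq {φ : N → ℂ} (hφ : Cfsg.IsCharacter N φ) (h1 : φ 1 ≠ 0) :
    (Nat.card N : ℝ) ≤ ∑ g, ‖φ g‖ ^ 2 := by
  classical
  haveI : Fintype (Cfsg.IrrCharacter N) := Fintype.ofFinite _
  obtain ⟨m, hm, hexp⟩ := Helper80.character_expansion hφ
  have hex : ∃ ψ, m ψ ≠ 0 := by
    by_contra hcon
    push Not at hcon
    apply h1
    rw [hexp]
    simp [hcon]
  obtain ⟨ψ₀, hψ₀⟩ := hex
  have h2 : Cfsg.classInner φ φ =
      ∑ χ : Cfsg.IrrCharacter N, ((m χ : ℂ)) * conj ((m χ : ℂ)) := by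
    conv_lhs => rw [hexp]
    exact Helper80.classInner_sum_irr _ _
  have h3 : Cfsg.classInner φ φ = ((∑ χ : Cfsg.IrrCharacter N, m χ * m χ : ℕ) : ℂ) := by
    rw [h2]
    push_cast
    refine Finset.sum_congr rfl (fun χ _ => ?_)
    rw [Complex.conj_natCast]
  have h4 : 1 ≤ ∑ χ : Cfsg.IrrCharacter N, m χ * m χ := by
    calc 1 ≤ m ψ₀ * m ψ₀ := Nat.mul_pos (Nat.pos_of_ne_zero hψ₀) (Nat.pos_of_ne_zero hψ₀)
      _ ≤ _ := Finset.single_le_sum (f := fun χ => m χ * m χ) (fun _ _ => Nat.zero_le _)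
        (Finset.mem_univ ψ₀)
  have hN : (Nat.card N : ℂ) ≠ 0 := by exact_mod_cast (Nat.card_pos (α := N)).ne'
  have h5 : ((∑ g, ‖φ g‖ ^ 2 : ℝ) : ℂ) =
      (Nat.card N : ℂ) * ((∑ χ : Cfsg.IrrCharacter N, m χ * m χ : ℕ) : ℂ) := by
    rw [← h3]
    unfold Cfsg.classInner
    rw [← mul_assoc, mul_inv_cancel₀ hN, one_mul, Complex.ofReal_sum]
    refine Finset.sum_congr rfl (fun g _ => ?_)
    rw [Complex.mul_conj, Complex.normSq_eq_norm_sq]
  have h6 : (∑ g, ‖φ g‖ ^ 2 : ℝ) =
      (Nat.card N : ℝ) * ((∑ χ : Cfsg.IrrCharacter N, m χ * m χ : ℕ) : ℝ) := by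
    exact_mod_cast h5
  rw [h6]
  have h7 : (1 : ℝ) ≤ ((∑ χ : Cfsg.IrrCharacter N, m χ * m χ : ℕ) : ℝ) := by exact_mod_cast h4
  have h8 : (0 : ℝ) ≤ (Nat.card N : ℝ) := Nat.cast_nonneg _
  nlinarith

variable [hHn : H.Normal]

/-- the average of an irreducible character over a normal subgroup is `0` or the character -/
theorem subAvg_irr {ψ : N → ℂ} (hψ : Cfsg.IsIrrCharacter N ψ) :
    subAvg H ψ = 0 ∨ subAvg H ψ = ψ := by
  obtain ⟨k, σ, hσ, rfl⟩ := hψ
  haveI := hσ
  have hne : Nontrivial (Fin k → ℂ) := Helper80.nontrivial_of_isIrreducible σ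
  have hH : (Nat.card H : ℂ) ≠ 0 := by exact_mod_cast (Nat.card_pos (α := H)).ne'
  obtain ⟨S, hS⟩ : ∃ S : Module.End ℂ (Fin k → ℂ), S = ∑ h : H, σ (h : N) := ⟨_, rfl⟩
  have hcomm : ∀ g, S * σ g = σ g * S := by
    intro g
    rw [hS, Finset.sum_mul, Finset.mul_sum]
    refine Fintype.sum_equiv (MulAut.conjNormal g⁻¹ : H ≃* H).toEquiv _ _ (fun h => ?_)
    show σ (h : N) * σ g = σ g * σ ((MulAut.conjNormal g⁻¹ h : H) : N)
    rw [MulAut.conjNormal_apply, ← map_mul, ← map_mul]
    congr 1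
    group
  obtain ⟨z, hz⟩ := Helper80.schur_scalar σ S hcomm
  have h1 : ∀ h : H, σ (h : N) * S = S := by
    intro h
    rw [hS, Finset.mul_sum]
    exact Fintype.sum_equiv (Equiv.mulLeft h) _ _ (fun h' => by simp [map_mul])
  have hSS : S * S = (Nat.card H : ℂ) • S := by
    have h2 : S * S = (∑ h : H, σ (h : N)) * S := congrArg (· * S) hS
    rw [h2, Finset.sum_mul, Finset.sum_congr rfl (fun h _ => h1 h), Finset.sum_const,
      Finset.card_univ, ← Nat.card_eq_fintype_card, Nat.cast_smul_eq_nsmul]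
  have hz2 : z * z = (Nat.card H : ℂ) * z := by
    rw [hz] at hSS
    simp only [mul_smul_comm, mul_one, smul_smul] at hSS
    exact smul_left_injective ℂ (one_ne_zero : (1 : Module.End ℂ (Fin k → ℂ)) ≠ 0) hSS
  have hval : ∀ g, ∑ h : H, σ.character ((h : N) * g) = z * σ.character g := by
    intro g
    simp only [Representation.character, map_mul]
    rw [← map_sum, ← Finset.sum_mul, ← hS, hz, smul_mul_assoc, one_mul, map_smul, smul_eq_mul]
  have hz3 : z = 0 ∨ z = (Nat.card H : ℂ) := by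
    have : z * (z - (Nat.card H : ℂ)) = 0 := by
      rw [mul_sub, hz2]
      ring
    rcases mul_eq_zero.1 this with h | h
    · exact Or.inl h
    · exact Or.inr (sub_eq_zero.1 h)
  rcases hz3 with h | h
  · left
    funext g
    show (Nat.card H : ℂ)⁻¹ * ∑ h : H, σ.character ((h : N) * g) = 0
    rw [hval, h, zero_mul, mul_zero]
  · right
    funext g
    show (Nat.card H : ℂ)⁻¹ * ∑ h : H, σ.character ((h : N) * g) = σ.character g
    rw [hval, h, ← mul_assoc, inv_mul_cancel₀ hH, one_mul]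

/-- the part of a character without `H` in the kernel is a character -/
theorem isCharacter_sub_subAvg {φ : N → ℂ} (hφ : Cfsg.IsCharacter N φ) :
    Cfsg.IsCharacter N (φ - subAvg H φ) := by
  classical
  haveI : Fintype (Cfsg.IrrCharacter N) := Fintype.ofFinite _
  obtain ⟨m, hm, hexp⟩ := Helper80.character_expansion hφ
  have h1 : φ - subAvg H φ = ∑ ψ : Cfsg.IrrCharacter N,
      (m ψ : ℂ) • ((ψ : N → ℂ) - subAvg H (ψ : N → ℂ)) := by
    have h2 : subAvg H φ = ∑ ψ : Cfsg.IrrCharacter N, (m ψ : ℂ) • subAvg H (ψ : N → ℂ) := by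
      conv_lhs => rw [hexp]
      exact subAvg_sum_smul H _ _ _
    rw [h2]
    conv_lhs => rw [hexp]
    rw [← Finset.sum_sub_distrib]
    refine Finset.sum_congr rfl (fun ψ _ => ?_)
    rw [smul_sub]
  rw [h1]
  refine isCharacter_sum _ _ (fun ψ _ => ?_)
  rcases subAvg_irr H ψ.2 with h | h
  · rw [h, sub_zero, Nat.cast_smul_eq_nsmul]
    exact isCharacter_nsmul (m ψ) (isCharacter_of_irr ψ.2)
  · rw [h, sub_self, smul_zero]
    exact isCharacter_zero

end Avg

end Cfsg.Agent.Lib.Helper82
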