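import Mathlib
import Cfsg.Prelude.Def_Characters
import Cfsg.Agent.Lib.Helper82.SubAvg
import Cfsg.Agent.Lib.Helper82.AbelianSylow

set_option autoImplicit false
set_option linter.unusedSectionVars false
set_option linter.style.haveILetI false
set_option maxHeartbeats 1000000

/-!
The Feit–Thompson degree bound for abelian subgroups `H` such that the centralizer of any
non-central element meets at most one conjugate of `H` nontrivially.
-/

namespace Cfsg.Agent.Lib.Helper82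

open Cfsg.Agent.Lib.Helper3 Cfsg.Agent.Lib.Helper75
open scoped ComplexConjugate

universe u

theorem card_filter_mem_subgroup {G : Type*} [Group G] [Fintype G] (K : Subgroup G)
    [DecidablePred (· ∈ K)] : (Finset.univ.filter (· ∈ K)).card = Nat.card K := by
  rw [Nat.card_eq_fintype_card, Fintype.card_subtype]

section FT

variable {G : Type u} [Group G] [Fintype G] (H : Subgroup G) [Fintype H]

theorem ft_key (hZ : H ⊓ Subgroup.center G = ⊥)
    (hone : ∀ g : G, g ∉ Subgroup.center G → ∀ a b : G,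
      Subgroup.centralizer ({g} : Set G) ⊓ H.map (MulAut.conj a).toMonoidHom ≠ ⊥ →
      Subgroup.centralizer ({g} : Set G) ⊓ H.map (MulAut.conj b).toMonoidHom ≠ ⊥ →
      H.map (MulAut.conj a).toMonoidHom = H.map (MulAut.conj b).toMonoidHom)
    {χ : G → ℂ} (hχ : Cfsg.IsIrrCharacter G χ) (hker : ∃ h ∈ H, χ h ≠ χ 1) :
    (Nat.card H : ℝ) * ‖(Nat.card H : ℂ)⁻¹ * ∑ h : H, χ h‖ ^ 2 < ‖χ 1‖ ^ 2 := by
  classical
  set Z : Subgroup G := Subgroup.center G with hZdef
  set N : Subgroup G := Subgroup.normalizer (H : Set G) with hNdef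
  haveI : Fintype N := Fintype.ofFinite _
  haveI : Fintype Z := Fintype.ofFinite _
  have hχc := isCharacter_of_irr hχ
  have hχcf := isClassFunction_of_isCharacter hχc
  have hHN : H ≤ N := Subgroup.le_normalizer
  have hZN : Z ≤ N := Subgroup.center_le_normalizer _
  set n : ℕ := Cfsg.charDegree χ with hn
  have hχ1 : χ 1 = (n : ℂ) := Helper80.char_one_eq_charDegree hχc
  have hnpos : 0 < n := Helper80.charDegree_pos hχ
  have hn0 : (0 : ℝ) < n := by exact_mod_cast hnpos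
  have hH0 : (Nat.card H : ℂ) ≠ 0 := by exact_mod_cast (Nat.card_pos (α := H)).ne'
  have hHZ : ∀ h ∈ H, h ∈ Z → h = 1 := by
    intro h hh hz
    have : h ∈ H ⊓ Subgroup.center G := ⟨hh, hz⟩
    rw [hZ] at this
    exact Subgroup.mem_bot.1 this
  -- the hypothesis in a clean form
  have hone' : ∀ g : G, g ∉ Z → ∀ a b : G,
      (∃ h ∈ H, h ≠ 1 ∧ (a * h * a⁻¹) * g = g * (a * h * a⁻¹)) →
      (∃ h ∈ H, h ≠ 1 ∧ (b * h * b⁻¹) * g = g * (b * h * b⁻¹)) → a⁻¹ * b ∈ N := by
    have haux : ∀ (g a : G), (∃ h ∈ H, h ≠ 1 ∧ (a * h * a⁻¹) * g = g * (a * h * a⁻¹)) →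
        Subgroup.centralizer ({g} : Set G) ⊓ H.map (MulAut.conj a).toMonoidHom ≠ ⊥ := by
      rintro g a ⟨h, hh, hh1, hhg⟩ hbot
      have hmem : a * h * a⁻¹ ∈
          Subgroup.centralizer ({g} : Set G) ⊓ H.map (MulAut.conj a).toMonoidHom := by
        refine Subgroup.mem_inf.2 ⟨?_, ⟨h, hh, rfl⟩⟩
        rw [Subgroup.mem_centralizer_iff]
        intro x hx
        rw [Set.mem_singleton_iff] at hx
        rw [hx]
        exact hhg.symm
      rw [hbot, Subgroup.mem_bot] at hmem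
      apply hh1
      have : h = a⁻¹ * (a * h * a⁻¹) * a := by group
      rw [this, hmem]
      group
    intro g hg a b ha hb
    have h3 := hone g hg a b (haux g a ha) (haux g b hb)
    apply Subgroup.mem_normalizer_fintype
    intro x hx
    have hx' : b * x * b⁻¹ ∈ H.map (MulAut.conj b).toMonoidHom := ⟨x, hx, rfl⟩
    rw [← h3] at hx'
    obtain ⟨y, hy, hyx⟩ := hx'
    have hyx' : a * y * a⁻¹ = b * x * b⁻¹ := hyx
    have : a⁻¹ * b * x * (a⁻¹ * b)⁻¹ = y := by
      calc a⁻¹ * b * x * (a⁻¹ * b)⁻¹ = a⁻¹ * (b * x * b⁻¹) * a := by group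
        _ = a⁻¹ * (a * y * a⁻¹) * a := by rw [hyx']
        _ = y := by group
    rw [this]
    exact hy
  -- the exceptional set
  obtain ⟨X, hX⟩ : ∃ X : G → Prop, ∀ g, X g ↔ (g ∉ Z ∧ ∃ h ∈ H, h ≠ 1 ∧ h * g = g * h) :=
    ⟨_, fun g => Iff.rfl⟩
  obtain ⟨D, hD⟩ : ∃ D : G → Prop, ∀ g, D g ↔ (g ∈ Z ∨ X g) := ⟨_, fun g => Iff.rfl⟩
  have hXN : ∀ g, X g → g ∈ N := by
    intro g hgX
    obtain ⟨hg, h, hh, hh1, hhg⟩ := (hX g).1 hgX
    have hhZ : h ∉ Z := fun hz => hh1 (hHZ h hh hz)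
    have e : g * h * g⁻¹ = h := by rw [← hhg, mul_inv_cancel_right]
    have := hone' h hhZ 1 g ⟨h, hh, hh1, by simp⟩ ⟨h, hh, hh1, by rw [e]⟩
    simpa using this
  have hDN : ∀ g, D g → g ∈ N := by
    intro g hgD
    rcases (hD g).1 hgD with hg | hg
    · exact hZN hg
    · exact hXN g hg
  have hconjX : ∀ x g : G, X (x⁻¹ * g * x) →
      ∃ h ∈ H, h ≠ 1 ∧ (x * h * x⁻¹) * g = g * (x * h * x⁻¹) := by
    intro x g hxg
    obtain ⟨-, h, hh, hh1, hc⟩ := (hX _).1 hxg
    refine ⟨h, hh, hh1, ?_⟩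
    calc x * h * x⁻¹ * g = x * (h * (x⁻¹ * g * x)) * x⁻¹ := by group
      _ = x * ((x⁻¹ * g * x) * h) * x⁻¹ := by rw [hc]
      _ = g * (x * h * x⁻¹) := by group
  -- central elements act as scalars
  have hcent : ∀ z ∈ Z, ∃ ω : ℂ, ‖ω‖ = 1 ∧ ∀ g, χ (g * z) = ω * χ g := by
    obtain ⟨k, ρ, hρ, hρχ⟩ := id hχ
    haveI := hρ
    intro z hz
    have hcomm : ∀ g, ρ z * ρ g = ρ g * ρ z := by
      intro g
      rw [← map_mul, ← map_mul, (Subgroup.mem_center_iff.1 hz g)]
    obtain ⟨ω, hω⟩ := Helper80.schur_scalar ρ (ρ z) hcomm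
    have hval : ∀ g, χ (g * z) = ω * χ g := by
      intro g
      rw [← hρχ]
      simp only [Representation.character, map_mul, hω]
      rw [mul_smul_comm, mul_one, map_smul, smul_eq_mul]
    refine ⟨ω, ?_, hval⟩
    have h1 : χ z = ω * (n : ℂ) := by
      have := hval 1
      rwa [one_mul, hχ1] at this
    have h2 : (n : ℂ) = ω * χ z⁻¹ := by
      have := hval z⁻¹
      rwa [inv_mul_cancel, hχ1] at this
    have h3 := Helper80.norm_char_le_charDegree hχc z
    have h4 := Helper80.norm_char_le_charDegree hχc z⁻¹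
    rw [h1, norm_mul, Complex.norm_natCast] at h3
    have h5 : (n : ℝ) = ‖ω‖ * ‖χ z⁻¹‖ := by
      have := congrArg norm h2
      rwa [Complex.norm_natCast, norm_mul] at this
    apply le_antisymm
    · by_contra hcon
      rw [not_le] at hcon
      nlinarith
    · by_contra hcon
      rw [not_le] at hcon
      nlinarith [norm_nonneg ω, norm_nonneg (χ z⁻¹)]
  have hZval : ∀ z ∈ Z, ‖χ z‖ = n := by
    intro z hz
    obtain ⟨ω, hω, hval⟩ := hcent z hz
    have := hval 1
    rw [one_mul, hχ1] at this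
    rw [this, norm_mul, hω, one_mul, Complex.norm_natCast]
  -- the averaged function
  set f : G → ℂ := fun g => (Nat.card H : ℂ)⁻¹ * ∑ h : H, χ ((h : G) * g) with hf
  have hf1 : f 1 = (Nat.card H : ℂ)⁻¹ * ∑ h : H, χ h := by
    simp only [hf, mul_one]
  rw [← hf1]
  -- (F1): off the exceptional set, `χ = f` on `N`
  have hF1 : ∀ g, g ∈ N → ¬ D g → χ g = f g := by
    intro g hgN hgD
    have hgZ : g ∉ Z := fun h => hgD ((hD g).2 (Or.inl h))
    have hfpf : ∀ h ∈ H, h * g = g * h → h = 1 := by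
      intro h hh hc
      by_contra h1
      exact hgD ((hD g).2 (Or.inr ((hX g).2 ⟨hgZ, h, hh, h1, hc⟩)))
    have hmem : ∀ h : H, (h : G) * (g * (h : G)⁻¹ * g⁻¹) ∈ H := by
      intro h
      have h1 : g * (h : G)⁻¹ * g⁻¹ ∈ H :=
        (Subgroup.mem_normalizer_iff.1 hgN _).1 (H.inv_mem h.2)
      exact H.mul_mem h.2 h1
    let e : H → H := fun h => ⟨(h : G) * (g * (h : G)⁻¹ * g⁻¹), hmem h⟩
    have hinj : Function.Injective e := by
      intro h h' hh'
      have h1 : (h : G) * (g * (h : G)⁻¹ * g⁻¹) = (h' : G) * (g * (h' : G)⁻¹ * g⁻¹) :=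
        congrArg Subtype.val hh'
      have h3 : (h : G) * g * (h : G)⁻¹ = (h' : G) * g * (h' : G)⁻¹ := by
        have := congrArg (· * g) h1
        simpa [mul_assoc] using this
      have h2 : ((h' : G)⁻¹ * h) * g = g * ((h' : G)⁻¹ * h) := by
        calc (h' : G)⁻¹ * h * g = (h' : G)⁻¹ * ((h : G) * g * (h : G)⁻¹) * h := by group
          _ = (h' : G)⁻¹ * ((h' : G) * g * (h' : G)⁻¹) * h := by rw [h3]
          _ = g * ((h' : G)⁻¹ * h) := by group
      have h4 := hfpf _ (H.mul_mem (H.inv_mem h'.2) h.2) h2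
      apply Subtype.ext
      exact (inv_mul_eq_one.1 h4).symm
    have hbij : Function.Bijective e := hinj.bijective_of_finite
    show χ g = (Nat.card H : ℂ)⁻¹ * ∑ h : H, χ ((h : G) * g)
    rw [← Equiv.sum_comp (Equiv.ofBijective e hbij) (fun h : H => χ ((h : G) * g))]
    have hterm : ∀ h : H, χ (((Equiv.ofBijective e hbij) h : G) * g) = χ g := by
      intro h
      show χ ((h : G) * (g * (h : G)⁻¹ * g⁻¹) * g) = χ g
      have : (h : G) * (g * (h : G)⁻¹ * g⁻¹) * g = (h : G) * g * (h : G)⁻¹ := by group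
      rw [this]
      exact hχcf g h
    rw [Finset.sum_congr rfl (fun h _ => hterm h), Finset.sum_const, Finset.card_univ,
      nsmul_eq_mul, ← Nat.card_eq_fintype_card, ← mul_assoc, inv_mul_cancel₀ hH0, one_mul]
  -- (F3), (F4): the group `N`
  haveI : (H.subgroupOf N).Normal := Subgroup.normal_in_normalizer
  haveI : Fintype (H.subgroupOf N) := Fintype.ofFinite _
  set φ : N → ℂ := fun g => χ g with hφ
  have hφc : Cfsg.IsCharacter N φ := isCharacter_res N hχc
  have havg : ∀ g : N, subAvg (H.subgroupOf N) φ g = f g := by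
    intro g
    unfold subAvg
    rw [Nat.card_congr (Subgroup.subgroupOfEquivOfLe hHN).toEquiv]
    congr 1
    exact Fintype.sum_equiv (Subgroup.subgroupOfEquivOfLe hHN).toEquiv _ _ (fun h => rfl)
  have hsplit := sum_norm_sq_split (H.subgroupOf N) φ
  have hchar := isCharacter_sub_subAvg (H.subgroupOf N) hφc
  have hne1 : (φ - subAvg (H.subgroupOf N) φ) 1 ≠ 0 := by
    intro h0
    rw [Pi.sub_apply, havg, sub_eq_zero] at h0
    have h1 : χ 1 = f 1 := h0
    rw [hf1, hχ1] at h1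
    have h2 : ∑ h : H, χ h = (Fintype.card H : ℂ) * ((n : ℝ) : ℂ) := by
      have := congrArg (fun z => (Nat.card H : ℂ) * z) h1
      simp only [← mul_assoc, mul_inv_cancel₀ hH0, one_mul] at this
      rw [← this, Nat.card_eq_fintype_card]
      push_cast
      rfl
    have h3 := eq_of_sum_eq_card_mul (fun h : H => χ h) (n : ℝ)
      (fun h => Helper80.norm_char_le_charDegree hχc h) h2
    obtain ⟨h, hh, hne⟩ := hker
    apply hne
    rw [hχ1]
    have := h3 ⟨h, hh⟩
    simpa using this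
  have hge := card_le_sum_norm_sq hchar hne1
  -- sums over `N` as filtered sums over `G`
  have hsub : ∀ F : G → ℝ, ∑ g : N, F g = ∑ g ∈ Finset.univ.filter (· ∈ N), F g := by
    intro F
    exact (Finset.sum_subtype (Finset.univ.filter (· ∈ N)) (by simp) F).symm
  have hsplit' : ∑ g ∈ Finset.univ.filter (· ∈ N), ‖χ g‖ ^ 2 =
      ∑ g ∈ Finset.univ.filter (· ∈ N), ‖f g‖ ^ 2 +
      ∑ g ∈ Finset.univ.filter (· ∈ N), ‖χ g - f g‖ ^ 2 := by
    rw [← hsub (fun g => ‖χ g‖ ^ 2), ← hsub (fun g => ‖f g‖ ^ 2),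
      ← hsub (fun g => ‖χ g - f g‖ ^ 2)]
    rw [hsplit]
    congr 1
    · exact Finset.sum_congr rfl (fun g _ => by rw [havg])
    · exact Finset.sum_congr rfl (fun g _ => by rw [havg])
  have hge' : (Nat.card N : ℝ) ≤ ∑ g ∈ Finset.univ.filter (· ∈ N), ‖χ g - f g‖ ^ 2 := by
    rw [← hsub (fun g => ‖χ g - f g‖ ^ 2)]
    refine le_trans hge (le_of_eq ?_)
    exact Finset.sum_congr rfl (fun g _ => by rw [Pi.sub_apply, havg])
  -- splitting `N` into `D` and the rest
  have hsplitD : ∀ F : G → ℝ, ∑ g ∈ Finset.univ.filter (· ∈ N), F g =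
      ∑ g ∈ Finset.univ.filter D, F g +
      ∑ g ∈ Finset.univ.filter (fun g => g ∈ N ∧ ¬ D g), F g := by
    intro F
    rw [Finset.sum_filter, Finset.sum_filter, Finset.sum_filter, ← Finset.sum_add_distrib]
    refine Finset.sum_congr rfl (fun g _ => ?_)
    by_cases hD : D g
    · have hgN := hDN g hD
      simp [hD, hgN]
    · by_cases hgN : g ∈ N
      · simp [hD, hgN]
      · simp [hD, hgN]
  have hrest : ∑ g ∈ Finset.univ.filter (fun g => g ∈ N ∧ ¬ D g), ‖χ g‖ ^ 2 =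
      ∑ g ∈ Finset.univ.filter (fun g => g ∈ N ∧ ¬ D g), ‖f g‖ ^ 2 := by
    refine Finset.sum_congr rfl (fun g hg => ?_)
    obtain ⟨hgN, hgD⟩ := (Finset.mem_filter.1 hg).2
    rw [hF1 g hgN hgD]
  have hrest0 : ∑ g ∈ Finset.univ.filter (fun g => g ∈ N ∧ ¬ D g), ‖χ g - f g‖ ^ 2 = 0 := by
    apply Finset.sum_eq_zero
    intro g hg
    obtain ⟨hgN, hgD⟩ := (Finset.mem_filter.1 hg).2
    rw [hF1 g hgN hgD, sub_self, norm_zero]
    norm_num
  -- (A): the sum over `D`
  have hA : (Nat.card N : ℝ) + ∑ g ∈ Finset.univ.filter D, ‖f g‖ ^ 2 ≤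
      ∑ g ∈ Finset.univ.filter D, ‖χ g‖ ^ 2 := by
    have h1 := hsplitD (fun g => ‖χ g‖ ^ 2)
    have h2 := hsplitD (fun g => ‖f g‖ ^ 2)
    have h3 := hsplitD (fun g => ‖χ g - f g‖ ^ 2)
    have h4 : (0 : ℝ) ≤ ∑ g ∈ Finset.univ.filter D, ‖χ g - f g‖ ^ 2 :=
      Finset.sum_nonneg (fun g _ => by positivity)
    rw [hrest0, add_zero] at h3
    rw [hrest] at h1
    linarith
  -- (F5)
  have hF5 : (Nat.card H : ℝ) * (Nat.card Z : ℝ) * ‖f 1‖ ^ 2 ≤
      ∑ g ∈ Finset.univ.filter D, ‖f g‖ ^ 2 := by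
    let j : H × Z → G := fun p => (p.1 : G) * (p.2 : G)
    have hj : Function.Injective j := by
      rintro ⟨h, z⟩ ⟨h', z'⟩ hh'
      have h1 : (h : G) * z = h' * z' := hh'
      have h2 : (h' : G)⁻¹ * h = z' * (z : G)⁻¹ := by
        calc (h' : G)⁻¹ * h = (h' : G)⁻¹ * ((h : G) * z) * (z : G)⁻¹ := by group
          _ = (h' : G)⁻¹ * ((h' : G) * z') * (z : G)⁻¹ := by rw [h1]
          _ = z' * (z : G)⁻¹ := by group
      have h3 : (h' : G)⁻¹ * h = 1 := hHZ _ (H.mul_mem (H.inv_mem h'.2) h.2)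
        (by rw [h2]; exact Z.mul_mem z'.2 (Z.inv_mem z.2))
      have h4 : (h' : G) = h := inv_mul_eq_one.1 h3
      have h5 : (z : G) = z' := by
        rw [← h4] at h1
        exact mul_left_cancel h1
      exact Prod.ext (Subtype.ext h4.symm) (Subtype.ext h5)
    have hjD : ∀ p : H × Z, D (j p) := by
      rintro ⟨h, z⟩
      rw [hD]
      by_cases h1 : (h : G) = 1
      · left
        show (h : G) * z ∈ Z
        rw [h1, one_mul]
        exact z.2
      · right
        rw [hX]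
        refine ⟨?_, h, h.2, h1, ?_⟩
        · intro hz
          apply h1
          apply hHZ _ h.2
          have := Z.mul_mem hz (Z.inv_mem z.2)
          rwa [mul_inv_cancel_right] at this
        · show (h : G) * ((h : G) * z) = (h : G) * z * h
          rw [mul_assoc, (Subgroup.mem_center_iff.1 z.2 h)]
    have hjval : ∀ p : H × Z, ‖f (j p)‖ = ‖f 1‖ := by
      rintro ⟨h, z⟩
      obtain ⟨ω, hω, hval⟩ := hcent z z.2
      have : f ((h : G) * z) = ω * f 1 := by
        show (Nat.card H : ℂ)⁻¹ * ∑ h' : H, χ ((h' : G) * ((h : G) * z)) =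
          ω * ((Nat.card H : ℂ)⁻¹ * ∑ h' : H, χ ((h' : G) * 1))
        have e1 : ∀ h' : H, χ ((h' : G) * ((h : G) * z)) = ω * χ (((h' * h : H) : G) * 1) := by
          intro h'
          rw [← mul_assoc, hval]
          simp
        have e2 : ∑ i : H, χ (((i * h : H) : G) * 1) = ∑ h'' : H, χ ((h'' : G) * 1) :=
          Fintype.sum_equiv (Equiv.mulRight h) _ _ (fun _ => rfl)
        rw [Finset.sum_congr rfl (fun h' _ => e1 h'), ← Finset.mul_sum, e2]
        ring
      show ‖f ((h : G) * z)‖ = ‖f 1‖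
      rw [this, norm_mul, hω, one_mul]
    calc (Nat.card H : ℝ) * (Nat.card Z : ℝ) * ‖f 1‖ ^ 2 = ∑ p : H × Z, ‖f (j p)‖ ^ 2 := by
          rw [Finset.sum_congr rfl (fun p _ => by rw [hjval p]), Finset.sum_const,
            Finset.card_univ, nsmul_eq_mul, Fintype.card_prod, ← Nat.card_eq_fintype_card,
            ← Nat.card_eq_fintype_card]
          push_cast
          ring
      _ = ∑ g ∈ Finset.univ.image j, ‖f g‖ ^ 2 :=
          (Finset.sum_image (s := Finset.univ) (g := j) (f := fun g => ‖f g‖ ^ 2)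
            (fun a _ b _ hab => hj hab)).symm
      _ ≤ ∑ g ∈ Finset.univ.filter D, ‖f g‖ ^ 2 := by
          apply Finset.sum_le_sum_of_subset_of_nonneg
          · intro g hg
            obtain ⟨p, -, rfl⟩ := Finset.mem_image.1 hg
            exact Finset.mem_filter.2 ⟨Finset.mem_univ _, hjD p⟩
          · intros
            positivity
  -- (F2)
  have hsumG : ∑ g, ‖χ g‖ ^ 2 = (Nat.card G : ℝ) := Helper80.sum_norm_sq_eq_card hχ
  have hSZ : ∑ g ∈ Finset.univ.filter (· ∈ Z), ‖χ g‖ ^ 2 = (Nat.card Z : ℝ) * (n : ℝ) ^ 2 := by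
    rw [Finset.sum_congr rfl (fun g hg => by rw [hZval g (Finset.mem_filter.1 hg).2]),
      Finset.sum_const, nsmul_eq_mul, card_filter_mem_subgroup]
  set SX : ℝ := ∑ g ∈ Finset.univ.filter X, ‖χ g‖ ^ 2 with hSX
  have hDsplit : ∑ g ∈ Finset.univ.filter D, ‖χ g‖ ^ 2 =
      (Nat.card Z : ℝ) * (n : ℝ) ^ 2 + SX := by
    rw [← hSZ, hSX, Finset.sum_filter, Finset.sum_filter, Finset.sum_filter,
      ← Finset.sum_add_distrib]
    refine Finset.sum_congr rfl (fun g _ => ?_)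
    by_cases hgZ : g ∈ Z
    · have hX' : ¬ X g := fun h => ((hX g).1 h).1 hgZ
      have hD' : D g := (hD g).2 (Or.inl hgZ)
      simp [hgZ, hX', hD']
    · by_cases hX' : X g
      · have hD' : D g := (hD g).2 (Or.inr hX')
        simp [hgZ, hX', hD']
      · have hD' : ¬ D g := by
          intro h
          rcases (hD g).1 h with h | h
          · exact hgZ h
          · exact hX' h
        simp [hgZ, hX', hD']
  have hF2 : (Nat.card G : ℝ) * SX + (Nat.card N : ℝ) * ((Nat.card Z : ℝ) * (n : ℝ) ^ 2) ≤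
      (Nat.card N : ℝ) * (Nat.card G : ℝ) := by
    have h1 : ∀ x : G, ∑ g, (if X (x⁻¹ * g * x) then ‖χ g‖ ^ 2 else 0) = SX := by
      intro x
      rw [hSX, Finset.sum_filter,
        ← Equiv.sum_comp (MulAut.conj x).toEquiv
          (fun g => if X (x⁻¹ * g * x) then ‖χ g‖ ^ 2 else 0)]
      refine Finset.sum_congr rfl (fun g _ => ?_)
      simp only [MulEquiv.toEquiv_eq_coe, EquivLike.coe_coe, MulAut.conj_apply]
      have e1 : x⁻¹ * (x * g * x⁻¹) * x = g := by group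
      have hiff : X (x⁻¹ * (x * g * x⁻¹) * x) ↔ X g := by rw [e1]
      simp only [hiff, hχcf g x]
    have h2 : ∑ x : G, ∑ g, (if X (x⁻¹ * g * x) then ‖χ g‖ ^ 2 else 0) =
        (Nat.card G : ℝ) * SX := by
      rw [Finset.sum_congr rfl (fun x _ => h1 x), Finset.sum_const, Finset.card_univ,
        nsmul_eq_mul, Nat.card_eq_fintype_card]
    have h3 : ∀ g : G, ∑ x : G, (if X (x⁻¹ * g * x) then ‖χ g‖ ^ 2 else 0) ≤
        (if g ∈ Z then 0 else (Nat.card N : ℝ) * ‖χ g‖ ^ 2) := by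
      intro g
      by_cases hg : g ∈ Z
      · rw [if_pos hg]
        apply le_of_eq
        apply Finset.sum_eq_zero
        intro x _
        rw [if_neg]
        intro hxX
        apply ((hX _).1 hxX).1
        have e1 : x⁻¹ * g * x = g := by
          rw [mul_assoc, (Subgroup.mem_center_iff.1 hg x).symm, ← mul_assoc, inv_mul_cancel,
            one_mul]
        rw [e1]
        exact hg
      · rw [if_neg hg, ← Finset.sum_filter, Finset.sum_const, nsmul_eq_mul]
        apply mul_le_mul_of_nonneg_right _ (by positivity)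
        have hcard : (Finset.univ.filter (fun x => X (x⁻¹ * g * x))).card ≤ Nat.card N := by
          rcases (Finset.univ.filter (fun x => X (x⁻¹ * g * x))).eq_empty_or_nonempty with he | he
          · rw [he, Finset.card_empty]
            exact Nat.zero_le _
          · obtain ⟨x₀, hx₀⟩ := he
            have hx₀' := (Finset.mem_filter.1 hx₀).2
            rw [← card_filter_mem_subgroup N]
            apply Finset.card_le_card_of_injOn (fun x => x₀⁻¹ * x)
            · intro x hx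
              have hx' := (Finset.mem_filter.1 (Finset.mem_coe.1 hx)).2
              exact Finset.mem_coe.2 (Finset.mem_filter.2 ⟨Finset.mem_univ _,
                hone' g hg x₀ x (hconjX x₀ g hx₀') (hconjX x g hx')⟩)
            · intro x _ y _ hxy
              exact mul_left_cancel hxy
        exact_mod_cast hcard
    have h4 : ∑ g : G, (if g ∈ Z then 0 else (Nat.card N : ℝ) * ‖χ g‖ ^ 2) =
        (Nat.card N : ℝ) * ((Nat.card G : ℝ) - (Nat.card Z : ℝ) * (n : ℝ) ^ 2) := by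
      rw [← hsumG, ← hSZ, ← Finset.sum_filter_add_sum_filter_not Finset.univ (· ∈ Z)
        (fun g => ‖χ g‖ ^ 2), add_sub_cancel_left, Finset.mul_sum, Finset.sum_filter]
      refine Finset.sum_congr rfl (fun g _ => ?_)
      by_cases hg : g ∈ Z
      · simp [hg]
      · simp [hg]
    have h5 : (Nat.card G : ℝ) * SX ≤
        (Nat.card N : ℝ) * ((Nat.card G : ℝ) - (Nat.card Z : ℝ) * (n : ℝ) ^ 2) := by
      rw [← h2, Finset.sum_comm, ← h4]
      exact Finset.sum_le_sum (fun g _ => h3 g)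
    linarith
  -- conclusion
  rw [hχ1, Complex.norm_natCast]
  have hGpos : (0 : ℝ) < (Nat.card G : ℝ) := by exact_mod_cast Nat.card_pos
  have hNpos : (0 : ℝ) < (Nat.card N : ℝ) := by exact_mod_cast Nat.card_pos
  have hZpos : (0 : ℝ) < (Nat.card Z : ℝ) := by exact_mod_cast Nat.card_pos
  have hHpos : (0 : ℝ) < (Nat.card H : ℝ) := by exact_mod_cast Nat.card_pos
  -- from hA, hF5, hDsplit: N + H Z c² ≤ Z n² + SX
  have hkey : (Nat.card N : ℝ) + (Nat.card H : ℝ) * (Nat.card Z : ℝ) * ‖f 1‖ ^ 2 ≤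
      (Nat.card Z : ℝ) * (n : ℝ) ^ 2 + SX := by
    rw [← hDsplit]
    linarith
  by_contra hcon
  rw [not_lt] at hcon
  -- G (N + H Z c² - Z n²) + N Z n² ≤ N G
  have h6 : (Nat.card G : ℝ) * ((Nat.card N : ℝ) + (Nat.card H : ℝ) * (Nat.card Z : ℝ) * ‖f 1‖ ^ 2
      - (Nat.card Z : ℝ) * (n : ℝ) ^ 2) ≤ (Nat.card G : ℝ) * SX :=
    mul_le_mul_of_nonneg_left (by linarith) hGpos.le
  have h7 : (Nat.card G : ℝ) * ((Nat.card Z : ℝ) * (n : ℝ) ^ 2) ≤
      (Nat.card G : ℝ) * ((Nat.card Z : ℝ) * ((Nat.card H : ℝ) * ‖f 1‖ ^ 2)) :=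
    mul_le_mul_of_nonneg_left (mul_le_mul_of_nonneg_left hcon hZpos.le) hGpos.le
  have h8 : (0 : ℝ) < (Nat.card N : ℝ) * ((Nat.card Z : ℝ) * (n : ℝ) ^ 2) := by positivity
  nlinarith

theorem ft_second (hab : ∀ a ∈ H, ∀ b ∈ H, a * b = b * a) (hZ : H ⊓ Subgroup.center G = ⊥)
    (hone : ∀ g : G, g ∉ Subgroup.center G → ∀ a b : G,
      Subgroup.centralizer ({g} : Set G) ⊓ H.map (MulAut.conj a).toMonoidHom ≠ ⊥ →
      Subgroup.centralizer ({g} : Set G) ⊓ H.map (MulAut.conj b).toMonoidHom ≠ ⊥ →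
      H.map (MulAut.conj a).toMonoidHom = H.map (MulAut.conj b).toMonoidHom)
    {χ : G → ℂ} (hχ : Cfsg.IsIrrCharacter G χ) (hχ1 : χ 1 ≠ 1)
    (hgen : ∀ M : Subgroup G, M.Normal → H ≤ M → M = ⊤) :
    Nat.card H < (1 + Cfsg.charDegree χ) ^ 2 := by
  classical
  haveI : Fintype (Cfsg.IrrCharacter G) := Fintype.ofFinite _
  haveI : Fintype (Cfsg.IrrCharacter H) := Fintype.ofFinite _
  have hχc := isCharacter_of_irr hχ
  have hG0 : (Nat.card G : ℂ) ≠ 0 := by exact_mod_cast (Nat.card_pos (α := G)).ne'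
  set n := Cfsg.charDegree χ with hn
  have hχ1' : χ 1 = (n : ℂ) := Helper80.char_one_eq_charDegree hχc
  have hn1 : n ≠ 1 := by
    intro h
    apply hχ1
    rw [hχ1', h]
    simp
  have hnpos : 0 < n := Helper80.charDegree_pos hχ
  set η : G → ℂ := χ * (fun g => conj (χ g)) with hη
  have hηc : Cfsg.IsCharacter G η := Helper80.isCharacter_mul hχc (Helper80.isCharacter_conj hχc)
  obtain ⟨m, hm, hexp⟩ := Helper80.character_expansion hηc
  have hdeg : n ^ 2 = ∑ ψ : Cfsg.IrrCharacter G, m ψ * Cfsg.charDegree (ψ : G → ℂ) := by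
    have h1 := Helper80.charDegree_eq_sum hηc m hexp
    rw [← h1]
    have h2 := Helper80.char_one_eq_charDegree hηc
    have h3 : η 1 = ((n ^ 2 : ℕ) : ℂ) := by
      simp [hη, hχ1', sq]
    rw [h3] at h2
    exact_mod_cast h2
  have hcψ : ∀ ψ : Cfsg.IrrCharacter G, ∃ c : ℕ,
      Cfsg.classInner (fun h : H => (ψ : G → ℂ) h) (fun _ => 1) = c :=
    fun ψ => classInner_char_nat (isCharacter_res H (isCharacter_of_irr ψ.2))
      (isCharacter_of_irr Helper80.isIrrCharacter_one)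
  choose c hc using hcψ
  have hs1 : Cfsg.classInner (fun h : H => η h) (fun _ => 1) =
      ((∑ ψ, m ψ * c ψ : ℕ) : ℂ) := by
    have : (fun h : H => η h) =
        ∑ ψ : Cfsg.IrrCharacter G, (m ψ : ℂ) • (fun h : H => (ψ : G → ℂ) h) := by
      funext h
      have := congrFun hexp h
      simp only [Finset.sum_apply, Pi.smul_apply, smul_eq_mul] at this ⊢
      exact this
    rw [this, classInner_sum_left]
    push_cast
    refine Finset.sum_congr rfl (fun ψ _ => ?_)
    rw [classInner_smul_left, hc ψ]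
  have hs2 : n ≤ ∑ ψ, m ψ * c ψ := by
    have h1 : Cfsg.classInner (fun h : H => η h) (fun _ => 1) =
        Cfsg.classInner (fun h : H => χ h) (fun h : H => χ h) := by
      unfold Cfsg.classInner
      congr 1
      refine Finset.sum_congr rfl (fun h _ => ?_)
      simp [hη]
    obtain ⟨a, ha, hsum⟩ := char_eq_sum_irr (isCharacter_res H hχc)
    have hcomm : ∀ x y : H, x * y = y * x := fun x y => Subtype.ext (hab x x.2 y y.2)
    have h2 : Cfsg.classInner (fun h : H => χ h) (fun h : H => χ h) =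
        ((∑ μ, a μ * a μ : ℕ) : ℂ) := by
      conv_lhs => rw [hsum]
      rw [Helper80.classInner_sum_irr]
      push_cast
      refine Finset.sum_congr rfl (fun μ _ => ?_)
      rw [Complex.conj_natCast]
    have h3 : n = ∑ μ : Cfsg.IrrCharacter H, a μ := by
      have := congrFun hsum 1
      simp only [Finset.sum_apply, Pi.smul_apply, smul_eq_mul] at this
      have h4 : ∀ μ : Cfsg.IrrCharacter H, (μ : H → ℂ) 1 = 1 :=
        fun μ => irr_one_eq_one_of_comm hcomm μ.2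
      simp only [h4, mul_one] at this
      have h5 : (χ ((1 : H) : G)) = (n : ℂ) := hχ1'
      rw [h5] at this
      exact_mod_cast this
    have h6 : (∑ ψ, m ψ * c ψ : ℕ) = ∑ μ, a μ * a μ := by
      have : ((∑ ψ, m ψ * c ψ : ℕ) : ℂ) = ((∑ μ, a μ * a μ : ℕ) : ℂ) := by
        rw [← hs1, h1, h2]
      exact_mod_cast this
    rw [h6, h3]
    exact Finset.sum_le_sum (fun μ _ => Nat.le_mul_self (a μ))
  -- the trivial character
  set ψ₀ : Cfsg.IrrCharacter G := ⟨fun _ => 1, Helper80.isIrrCharacter_one⟩ with hψ₀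
  have hm0 : m ψ₀ = 1 := by
    have h1 : Cfsg.classInner η (fun _ => (1 : ℂ)) = Cfsg.classInner χ χ := by
      unfold Cfsg.classInner
      congr 1
      refine Finset.sum_congr rfl (fun g _ => ?_)
      simp [hη]
    have h2 := hm ψ₀
    rw [show ((ψ₀ : Cfsg.IrrCharacter G) : G → ℂ) = fun _ => 1 from rfl, h1,
      Helper80.classInner_self hχ] at h2
    exact_mod_cast h2.symm
  have hc0 : c ψ₀ = 1 := by
    have h := hc ψ₀
    have h1 : Cfsg.classInner (fun h : H => ((ψ₀ : Cfsg.IrrCharacter G) : G → ℂ) h)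
        (fun _ => (1 : ℂ)) = 1 :=
      Helper80.classInner_self (Helper80.isIrrCharacter_one (G := H))
    rw [h1] at h
    exact_mod_cast h.symm
  have hd0 : Cfsg.charDegree ((ψ₀ : Cfsg.IrrCharacter G) : G → ℂ) = 1 := by
    have := Helper80.char_one_eq_charDegree (isCharacter_of_irr ψ₀.2)
    have h1 : ((ψ₀ : Cfsg.IrrCharacter G) : G → ℂ) 1 = 1 := rfl
    rw [h1] at this
    exact_mod_cast this.symm
  have hnontriv : ∀ ψ : Cfsg.IrrCharacter G, ψ ≠ ψ₀ →
      ∃ h ∈ H, (ψ : G → ℂ) h ≠ (ψ : G → ℂ) 1 := by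
    intro ψ hψ
    by_contra hcon
    push Not at hcon
    obtain ⟨K, hKn, hK⟩ := Helper80.exists_ker_subgroup (isCharacter_of_irr ψ.2)
    have hHK : H ≤ K := fun h hh => (hK h).2 (hcon h hh)
    have hKtop := hgen K hKn hHK
    have hconst : ∀ g, (ψ : G → ℂ) g = (ψ : G → ℂ) 1 :=
      fun g => (hK g).1 (by rw [hKtop]; trivial)
    apply hψ
    have hd := Helper80.char_one_eq_charDegree (isCharacter_of_irr ψ.2)
    have h1 : Cfsg.classInner (ψ : G → ℂ) (fun _ => (1 : ℂ)) ≠ 0 := by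
      have : Cfsg.classInner (ψ : G → ℂ) (fun _ => (1 : ℂ)) =
          (Cfsg.charDegree (ψ : G → ℂ) : ℂ) := by
        unfold Cfsg.classInner
        rw [Finset.sum_congr rfl (fun g _ => by rw [hconst g, hd, map_one, mul_one]),
          Finset.sum_const, Finset.card_univ, nsmul_eq_mul, ← Nat.card_eq_fintype_card,
          ← mul_assoc, inv_mul_cancel₀ hG0, one_mul]
      rw [this]
      exact_mod_cast (Helper80.charDegree_pos ψ.2).ne'
    by_contra hne
    exact h1 (classInner_irr_ne ψ.2 Helper80.isIrrCharacter_one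
      (fun h => hne (Subtype.ext h)))
  have hkeyψ : ∀ ψ : Cfsg.IrrCharacter G, ψ ≠ ψ₀ →
      Nat.card H * c ψ ^ 2 < Cfsg.charDegree (ψ : G → ℂ) ^ 2 := by
    intro ψ hψ
    have h1 := ft_key H hZ hone ψ.2 (hnontriv ψ hψ)
    have h2 : (Nat.card H : ℂ)⁻¹ * ∑ h : H, (ψ : G → ℂ) h = (c ψ : ℂ) := by
      rw [← hc ψ]
      unfold Cfsg.classInner
      congr 1
      refine Finset.sum_congr rfl (fun h _ => ?_)
      simp
    rw [h2, Helper80.char_one_eq_charDegree (isCharacter_of_irr ψ.2), Complex.norm_natCast,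
      Complex.norm_natCast] at h1
    exact_mod_cast h1
  by_contra hcon
  rw [not_lt] at hcon
  have hlt : ∀ ψ : Cfsg.IrrCharacter G, ψ ≠ ψ₀ →
      (1 + n) * c ψ < Cfsg.charDegree (ψ : G → ℂ) := by
    intro ψ hψ
    have h1 := hkeyψ ψ hψ
    have h2 : ((1 + n) * c ψ) ^ 2 < Cfsg.charDegree (ψ : G → ℂ) ^ 2 := by
      calc ((1 + n) * c ψ) ^ 2 = (1 + n) ^ 2 * c ψ ^ 2 := by ring
        _ ≤ Nat.card H * c ψ ^ 2 := Nat.mul_le_mul_right _ hcon
        _ < _ := h1
    exact lt_of_pow_lt_pow_left₀ 2 (Nat.zero_le _) h2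
  have hsum1 : n ^ 2 =
      1 + ∑ ψ ∈ Finset.univ.erase ψ₀, m ψ * Cfsg.charDegree (ψ : G → ℂ) := by
    rw [hdeg, ← Finset.add_sum_erase Finset.univ _ (Finset.mem_univ ψ₀), hm0, hd0]
  have hsum2 : ∑ ψ, m ψ * c ψ = 1 + ∑ ψ ∈ Finset.univ.erase ψ₀, m ψ * c ψ := by
    rw [← Finset.add_sum_erase Finset.univ _ (Finset.mem_univ ψ₀), hm0, hc0]
  have hex : ∃ ψ ∈ Finset.univ.erase ψ₀, m ψ ≠ 0 := by
    by_contra hno
    push Not at hno
    have h0 : ∑ ψ ∈ Finset.univ.erase ψ₀, m ψ * Cfsg.charDegree (ψ : G → ℂ) = 0 :=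
      Finset.sum_eq_zero (fun ψ hψ => by rw [hno ψ hψ, zero_mul])
    rw [h0] at hsum1
    have : n = 1 := by nlinarith
    exact hn1 this
  obtain ⟨ψ₁, hψ₁, hmψ₁⟩ := hex
  have hstrict : ∑ ψ ∈ Finset.univ.erase ψ₀, m ψ * ((1 + n) * c ψ) <
      ∑ ψ ∈ Finset.univ.erase ψ₀, m ψ * Cfsg.charDegree (ψ : G → ℂ) := by
    apply Finset.sum_lt_sum
    · intro ψ hψ
      exact Nat.mul_le_mul_left _ (hlt ψ (Finset.ne_of_mem_erase hψ)).le
    · exact ⟨ψ₁, hψ₁, Nat.mul_lt_mul_of_pos_left (hlt ψ₁ (Finset.ne_of_mem_erase hψ₁))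
        (Nat.pos_of_ne_zero hmψ₁)⟩
  have h9 : ∑ ψ ∈ Finset.univ.erase ψ₀, m ψ * ((1 + n) * c ψ) =
      (1 + n) * ∑ ψ ∈ Finset.univ.erase ψ₀, m ψ * c ψ := by
    rw [Finset.mul_sum]
    exact Finset.sum_congr rfl (fun ψ _ => by ring)
  rw [h9] at hstrict
  rw [hsum2] at hs2
  have h10 : (1 + n) * (n - 1) ≤ (1 + n) * ∑ ψ ∈ Finset.univ.erase ψ₀, m ψ * c ψ :=
    Nat.mul_le_mul_left _ (by omega)
  have h11 : (1 + n) * (n - 1) + 1 = n ^ 2 := by
    obtain ⟨k, hk⟩ : ∃ k, n = k + 1 := ⟨n - 1, by omega⟩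
    rw [hk]
    simp
    ring
  generalize (1 + n) * (n - 1) = A at h10 h11
  generalize (1 + n) * ∑ ψ ∈ Finset.univ.erase ψ₀, m ψ * c ψ = B at h10 hstrict
  generalize ∑ ψ ∈ Finset.univ.erase ψ₀, m ψ * Cfsg.charDegree (ψ : G → ℂ) = C at hsum1 hstrict
  generalize n ^ 2 = E at hsum1 h11
  omega

end FT

end Cfsg.Agent.Lib.Helper82
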