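import Mathlib
import Cfsg.Prelude.Def_Characters
import Cfsg.Agent.Lib.Helper82.FTBound
import Cfsg.Agent.Lib.Helper82.BLFaithful
import Cfsg.Agent.S4468

/-!
# The Feit–Thompson theorem on faithful characters of small degree

If `G` has a faithful character of degree `n` with `n + 1 < p` and every subgroup of `G` whose
order is not divisible by `p ^ 2` has a normal Sylow `p`-subgroup, then the Sylow `p`-subgroup of
`G` is normal.
-/

set_option autoImplicit false
set_option linter.style.haveILetI false

namespace Cfsg.Agent.Lib.Helper82.FTN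

open scoped Pointwise
open Cfsg.Agent.Lib.Helper80

universe u

section Transport

variable {p : ℕ} [Fact p.Prime]

/-- Normality of all Sylow subgroups transfers along an isomorphism. -/
theorem sylow_normal_of_mulEquiv {H K : Type*} [Group H] [Group K] [Finite H] (e : H ≃* K)
    (h : ∀ Q : Sylow p K, (Q : Subgroup K).Normal) (Q : Sylow p H) : (Q : Subgroup H).Normal := by
  have hs : Function.Surjective e.toMonoidHom := e.surjective
  have h1 := h (Q.mapSurjective hs)
  rw [Sylow.coe_mapSurjective] at h1
  have h2 : (Q : Subgroup H) = ((Q : Subgroup H).map e.toMonoidHom).comap e.toMonoidHom :=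
    (Subgroup.comap_map_eq_self_of_injective e.injective _).symm
  rw [h2]
  exact h1.comap _

variable {G : Type*} [Group G] [Finite G]

/-- Two Sylow subgroups of `G` inside a subgroup with normal Sylow subgroups coincide. -/
theorem sylow_eq_of_le (M : Subgroup G) (hM : ∀ Q : Sylow p ↥M, (Q : Subgroup ↥M).Normal)
    (S T : Sylow p G) (hS : (S : Subgroup G) ≤ M) (hT : (T : Subgroup G) ≤ M) : S = T := by
  haveI : Subsingleton (Sylow p ↥M) :=
    (Sylow.unique_of_normal (S.subtype hS) (hM _)).instSubsingleton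
  have h1 : S.subtype hS = T.subtype hT := Subsingleton.elim _ _
  have h2 : ((S.subtype hS : Sylow p ↥M) : Subgroup ↥M)
      = ((T.subtype hT : Sylow p ↥M) : Subgroup ↥M) := congrArg _ h1
  rw [Sylow.coe_subtype, Sylow.coe_subtype] at h2
  apply Sylow.ext
  apply le_antisymm
  · intro x hx
    have h3 : (⟨x, hS hx⟩ : ↥M) ∈ (S : Subgroup G).subgroupOf M := Subgroup.mem_subgroupOf.2 hx
    rw [h2] at h3
    exact Subgroup.mem_subgroupOf.1 h3
  · intro x hx
    have h3 : (⟨x, hT hx⟩ : ↥M) ∈ (T : Subgroup G).subgroupOf M := Subgroup.mem_subgroupOf.2 hx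
    rw [← h2] at h3
    exact Subgroup.mem_subgroupOf.1 h3

/-- In a subgroup with normal Sylow subgroups, every `p`-element lies in every Sylow subgroup. -/
theorem mem_sylow_of_pElement (M : Subgroup G) (hM : ∀ Q : Sylow p ↥M, (Q : Subgroup ↥M).Normal)
    (Q : Sylow p ↥M) (x : ↥M) (hx : IsPGroup p (Subgroup.zpowers x)) : x ∈ (Q : Subgroup ↥M) := by
  haveI : Subsingleton (Sylow p ↥M) := (Sylow.unique_of_normal Q (hM _)).instSubsingleton
  obtain ⟨Q', hQ'⟩ := hx.exists_le_sylow
  rw [Subsingleton.elim Q Q']
  exact hQ' (Subgroup.mem_zpowers x)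

/-- An element of a subgroup `M` lying in a Sylow subgroup of `G` generates a `p`-group. -/
theorem isPGroup_zpowers_subtype (M : Subgroup G) (S : Sylow p G) (x : ↥M)
    (hx : (x : G) ∈ (S : Subgroup G)) : IsPGroup p (Subgroup.zpowers x) := by
  obtain ⟨j, hj⟩ := (IsPGroup.iff_orderOf.1 S.isPGroup') ⟨(x : G), hx⟩
  rw [Subgroup.orderOf_mk] at hj
  apply IsPGroup.of_card (n := j)
  rw [Nat.card_zpowers, ← Subgroup.orderOf_coe, hj]

end Transport

section Main

variable (p : ℕ) [Fact p.Prime]

/-- The Feit–Thompson theorem, under the hypothesis on subgroups of order not divisible by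
`p ^ 2`. -/
theorem normal_of_small_degree :
    ∀ (k : ℕ) (G : Type u) [Group G] [Finite G], Nat.card G = k →
      ∀ (χ : G → ℂ), Cfsg.IsCharacter G χ → (∀ g : G, χ g = χ 1 → g = 1) →
      Cfsg.charDegree χ + 1 < p →
      (∀ K : Subgroup G, ¬ p ^ 2 ∣ Nat.card K → ∀ Q : Sylow p K, (Q : Subgroup K).Normal) →
      ∀ P : Sylow p G, (P : Subgroup G).Normal := by
  intro k
  induction k using Nat.strong_induction_on with
  | _ k ih =>
  intro G _ _ hk χ hχ hfaith hdeg hyp P
  classical
  have hp : p.Prime := Fact.out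
  letI : Fintype G := Fintype.ofFinite G
  letI : Fintype (Cfsg.IrrCharacter G) := Fintype.ofFinite _
  set n := Cfsg.charDegree χ with hn
  by_contra hP
  -- every proper subgroup has normal Sylow subgroups
  have hmin : ∀ M : Subgroup G, M ≠ ⊤ → ∀ Q : Sylow p ↥M, (Q : Subgroup ↥M).Normal := by
    intro M hM
    have hcard : Nat.card ↥M < k := by
      have h1 : Nat.card ↥M ≤ Nat.card G := Subgroup.card_le_card_group M
      have h2 : Nat.card ↥M ≠ Nat.card G := fun h => hM ((Subgroup.card_eq_iff_eq_top M).1 h)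
      omega
    refine ih _ hcard ↥M rfl (fun c : ↥M => χ c) (isCharacter_restrict M hχ)
      (fun c hc => Subtype.ext (hfaith c hc)) hdeg ?_
    intro K' hK'
    have e : ↥K' ≃* ↥(K'.map M.subtype) :=
      K'.equivMapOfInjective M.subtype M.subtype_injective
    have hcardK : Nat.card ↥(K'.map M.subtype) = Nat.card ↥K' := (Nat.card_congr e.toEquiv).symm
    exact sylow_normal_of_mulEquiv e (hyp (K'.map M.subtype) (by rw [hcardK]; exact hK'))
  -- `p ^ 2` divides the order
  have hp2 : p ^ 2 ∣ Nat.card G := by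
    by_contra hnd
    have h1 := hyp ⊤ (by rw [Subgroup.card_top]; exact hnd)
    exact hP (sylow_normal_of_mulEquiv (Subgroup.topEquiv (G := G)).symm h1 P)
  have hcardP : p ^ 2 ≤ Nat.card ↥(P : Subgroup G) := by
    have h1 : Nat.card ↥(P : Subgroup G) = p ^ (Nat.card G).factorization p :=
      P.card_eq_multiplicity
    rw [h1]
    have h2 : 2 ≤ (Nat.card G).factorization p :=
      (hp.pow_dvd_iff_le_factorization Nat.card_pos.ne').1 hp2
    exact Nat.pow_le_pow_right hp.pos h2
  -- Sylow subgroups are abelian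
  have hab : ∀ S : Sylow p G, ∀ a ∈ (S : Subgroup G), ∀ b ∈ (S : Subgroup G), a * b = b * a :=
    fun S => Cfsg.Agent.Lib.Helper96.Ito.comm_of_faithful p hp hχ hfaith (by omega)
      (S : Subgroup G) S.isPGroup'
  by_cases hZ : (P : Subgroup G) ⊓ Subgroup.center G = ⊥
  · -- the trivial intersection case
    have hcentral : ∀ (S : Sylow p G) (x : G), x ∈ (S : Subgroup G) → x ∈ Subgroup.center G →
        x = 1 := by
      intro S x hxS hxZ
      obtain ⟨g, hg⟩ := MulAction.exists_smul_eq G S P
      have h1 : x ∈ ((g • S : Sylow p G) : Subgroup G) := by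
        rw [Sylow.coe_subgroup_smul, Subgroup.mem_pointwise_smul_iff_inv_smul_mem]
        have h2 : (MulAut.conj g)⁻¹ • x = x := by
          rw [← map_inv, MulAut.smul_def, MulAut.conj_apply, inv_inv]
          have h3 := Subgroup.mem_center_iff.1 hxZ g
          rw [mul_assoc, ← h3, inv_mul_cancel_left]
        rw [h2]
        exact hxS
      rw [hg] at h1
      have h4 : x ∈ (P : Subgroup G) ⊓ Subgroup.center G := ⟨h1, hxZ⟩
      rw [hZ] at h4
      exact Subgroup.mem_bot.1 h4
    have hTI : ∀ (S T : Sylow p G) (x : G), x ≠ 1 → x ∈ (S : Subgroup G) →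
        x ∈ (T : Subgroup G) → S = T := by
      intro S T x hx1 hxS hxT
      set D : Subgroup G := (S : Subgroup G) ⊓ (T : Subgroup G) with hD
      have hSC : (S : Subgroup G) ≤ Subgroup.centralizer (D : Set G) := by
        intro s hs
        rw [Subgroup.mem_centralizer_iff]
        intro d hd
        exact hab S d hd.1 s hs
      have hTC : (T : Subgroup G) ≤ Subgroup.centralizer (D : Set G) := by
        intro t ht
        rw [Subgroup.mem_centralizer_iff]
        intro d hd
        exact hab T d hd.2 t ht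
      by_cases hCtop : Subgroup.centralizer (D : Set G) = ⊤
      · exfalso
        apply hx1
        apply hcentral S x hxS
        rw [Subgroup.mem_center_iff]
        intro g
        have hg : g ∈ Subgroup.centralizer (D : Set G) := by rw [hCtop]; trivial
        exact ((Subgroup.mem_centralizer_iff.1 hg) x ⟨hxS, hxT⟩).symm
      · exact sylow_eq_of_le _ (hmin _ hCtop) S T hSC hTC
    -- key: two Sylow subgroups meeting a proper subgroup nontrivially coincide
    have hkey : ∀ (M : Subgroup G), M ≠ ⊤ → ∀ (S T : Sylow p G) (x y : G), x ≠ 1 → y ≠ 1 →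
        x ∈ M → y ∈ M → x ∈ (S : Subgroup G) → y ∈ (T : Subgroup G) → S = T := by
      intro M hM S T x y hx1 hy1 hxM hyM hxS hyT
      have hMn := hmin M hM
      obtain ⟨Q₀⟩ : Nonempty (Sylow p ↥M) := inferInstance
      have hxQ : (⟨x, hxM⟩ : ↥M) ∈ (Q₀ : Subgroup ↥M) :=
        mem_sylow_of_pElement M hMn Q₀ _ (isPGroup_zpowers_subtype M S ⟨x, hxM⟩ hxS)
      have hyQ : (⟨y, hyM⟩ : ↥M) ∈ (Q₀ : Subgroup ↥M) :=
        mem_sylow_of_pElement M hMn Q₀ _ (isPGroup_zpowers_subtype M T ⟨y, hyM⟩ hyT)
      have hQp : IsPGroup p ((Q₀ : Subgroup ↥M).map M.subtype) := Q₀.isPGroup'.map _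
      obtain ⟨R, hR⟩ := hQp.exists_le_sylow
      have hxR : x ∈ (R : Subgroup G) := hR ⟨⟨x, hxM⟩, hxQ, rfl⟩
      have hyR : y ∈ (R : Subgroup G) := hR ⟨⟨y, hyM⟩, hyQ, rfl⟩
      rw [hTI S R x hx1 hxS hxR, hTI T R y hy1 hyT hyR]
    have hone : ∀ g : G, g ∉ Subgroup.center G → ∀ a b : G,
        Subgroup.centralizer ({g} : Set G) ⊓
            (P : Subgroup G).map (MulAut.conj a).toMonoidHom ≠ ⊥ →
        Subgroup.centralizer ({g} : Set G) ⊓
            (P : Subgroup G).map (MulAut.conj b).toMonoidHom ≠ ⊥ →
        (P : Subgroup G).map (MulAut.conj a).toMonoidHom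
          = (P : Subgroup G).map (MulAut.conj b).toMonoidHom := by
      intro g hg a b ha hb
      have hCtop : Subgroup.centralizer ({g} : Set G) ≠ ⊤ := by
        intro htop
        apply hg
        rw [Subgroup.mem_center_iff]
        intro c
        have hc : c ∈ Subgroup.centralizer ({g} : Set G) := by rw [htop]; trivial
        exact ((Subgroup.mem_centralizer_iff.1 hc) g rfl).symm
      obtain ⟨x, hx⟩ := (Subgroup.ne_bot_iff_exists_ne_one).1 ha
      obtain ⟨y, hy⟩ := (Subgroup.ne_bot_iff_exists_ne_one).1 hb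
      have hsa : Function.Surjective (MulAut.conj a).toMonoidHom := (MulAut.conj a).surjective
      have hsb : Function.Surjective (MulAut.conj b).toMonoidHom := (MulAut.conj b).surjective
      have h1 := hkey _ hCtop (P.mapSurjective hsa) (P.mapSurjective hsb) (x : G) (y : G)
        (fun h => hx (Subtype.ext h)) (fun h => hy (Subtype.ext h)) x.2.1 y.2.1 x.2.2 y.2.2
      have h2 := congrArg (fun S : Sylow p G => (S : Subgroup G)) h1
      simpa using h2
    have hgen : ∀ M : Subgroup G, M.Normal → (P : Subgroup G) ≤ M → M = ⊤ := by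
      intro M hMn hPM
      by_contra hMtop
      exact hP (BL.normal_of_subtype_normal p P M hPM hMn (hmin M hMtop _))
    haveI : Fintype ↥(P : Subgroup G) := Fintype.ofFinite _
    obtain ⟨m, hm, hexp⟩ := character_expansion hχ
    have hsum := charDegree_eq_sum hχ m hexp
    have hlin : ∀ ψ : Cfsg.IrrCharacter G, m ψ ≠ 0 → (ψ : G → ℂ) 1 = 1 := by
      intro ψ hmψ
      by_contra hψ1
      have hle : Cfsg.charDegree (ψ : G → ℂ) ≤ n := by
        rw [hn, hsum]
        calc Cfsg.charDegree (ψ : G → ℂ) ≤ m ψ * Cfsg.charDegree (ψ : G → ℂ) :=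
              Nat.le_mul_of_pos_left _ (Nat.pos_of_ne_zero hmψ)
          _ ≤ _ := Finset.single_le_sum
              (f := fun ψ' : Cfsg.IrrCharacter G => m ψ' * Cfsg.charDegree (ψ' : G → ℂ))
              (fun _ _ => Nat.zero_le _) (Finset.mem_univ ψ)
      have h1 := ft_second (P : Subgroup G) (hab P) hZ hone ψ.2 hψ1 hgen
      have h2 : (1 + Cfsg.charDegree (ψ : G → ℂ)) ^ 2 ≤ p ^ 2 :=
        Nat.pow_le_pow_left (by omega) 2
      omega
    have hcomm : ∀ a b : G, a * b = b * a := by
      intro a b
      have hmem : a * b * a⁻¹ * b⁻¹ ∈ commutator G := by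
        rw [commutator_def, ← commutatorElement_def]
        exact Subgroup.commutator_mem_commutator (Subgroup.mem_top a) (Subgroup.mem_top b)
      have hc : a * b * a⁻¹ * b⁻¹ = 1 := by
        apply hfaith
        rw [hexp]
        simp only [Finset.sum_apply, Pi.smul_apply, smul_eq_mul]
        refine Finset.sum_congr rfl (fun ψ _ => ?_)
        by_cases hmψ : m ψ = 0
        · rw [hmψ]
          simp
        · congr 1
          rw [hlin ψ hmψ]
          exact Cfsg.Agent.Lib.Helper79.linear_irr_commutator ψ.2 (hlin ψ hmψ) hmem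
      have h2 := congrArg (fun t => t * b * a) hc
      simpa [mul_assoc] using h2
    apply hP
    constructor
    intro y hy g
    rw [hcomm g y, mul_inv_cancel_right]
    exact hy
  · -- a central element of order a power of `p`: transfer
    obtain ⟨z, hz⟩ := (Subgroup.ne_bot_iff_exists_ne_one).1 hZ
    have hzP : (z : G) ∈ (P : Subgroup G) := z.2.1
    have hzZ : (z : G) ∈ Subgroup.center G := z.2.2
    have hz1 : (z : G) ≠ 1 := fun h => hz (Subtype.ext h)
    letI : CommGroup ↥(P : Subgroup G) :=
      { (inferInstance : Group ↥(P : Subgroup G)) with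
        mul_comm := fun a b => Subtype.ext (hab P a a.2 b b.2) }
    let V : G →* ↥(P : Subgroup G) := MonoidHom.transfer (MonoidHom.id ↥(P : Subgroup G))
    have hkeyz : ∀ (j : ℕ) (g₀ : G), g₀⁻¹ * (z : G) ^ j * g₀ ∈ (P : Subgroup G) →
        g₀⁻¹ * (z : G) ^ j * g₀ = (z : G) ^ j := by
      intro j g₀ _
      have h1 := Subgroup.mem_center_iff.1 ((Subgroup.center G).pow_mem hzZ j) g₀
      rw [mul_assoc, ← h1, inv_mul_cancel_left]
    have hVz : V (z : G) = ⟨(z : G) ^ (P : Subgroup G).index,
        MonoidHom.transfer_eq_pow_aux (z : G) hkeyz⟩ :=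
      MonoidHom.transfer_eq_pow (MonoidHom.id ↥(P : Subgroup G)) (z : G) hkeyz
    have hVz1 : V (z : G) ≠ 1 := by
      intro h1
      rw [hVz] at h1
      have h2 : (z : G) ^ (P : Subgroup G).index = 1 := congrArg Subtype.val h1
      have h3 : orderOf (z : G) ∣ (P : Subgroup G).index := orderOf_dvd_of_pow_eq_one h2
      obtain ⟨j, hj⟩ := (IsPGroup.iff_orderOf.1 P.isPGroup') ⟨(z : G), hzP⟩
      rw [Subgroup.orderOf_mk] at hj
      have hj0 : j ≠ 0 := by
        intro h0
        rw [h0, pow_zero, orderOf_eq_one_iff] at hj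
        exact hz1 hj
      have h4 : p ∣ (P : Subgroup G).index :=
        (dvd_pow_self p hj0).trans (hj ▸ h3)
      exact P.not_dvd_index h4
    have hMtop : V.ker ≠ ⊤ := by
      intro htop
      apply hVz1
      have : (z : G) ∈ V.ker := by rw [htop]; trivial
      exact this
    have hMindex : ∃ j : ℕ, V.ker.index = p ^ j := by
      rw [Subgroup.index_ker]
      have h1 : Nat.card ↥V.range ∣ Nat.card ↥(P : Subgroup G) := Subgroup.card_subgroup_dvd_card _
      obtain ⟨a, ha⟩ := IsPGroup.iff_card.1 P.isPGroup'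
      rw [ha] at h1
      obtain ⟨j, -, hj⟩ := (Nat.dvd_prime_pow hp).1 h1
      exact ⟨j, hj⟩
    obtain ⟨Q⟩ : Nonempty (Sylow p ↥V.ker) := inferInstance
    have hQn : (Q : Subgroup ↥V.ker).Normal := hmin _ hMtop Q
    haveI : Subsingleton (Sylow p ↥V.ker) := (Sylow.unique_of_normal Q hQn).instSubsingleton
    haveI hQc : (Q : Subgroup ↥V.ker).Characteristic := Sylow.characteristic_of_subsingleton Q
    have hQ'n : ((Q : Subgroup ↥V.ker).map V.ker.subtype).Normal :=
      ConjAct.normal_of_characteristic_of_normal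
    have hsolv : Cfsg.IsPSolvable p G := by
      refine ⟨3, ![⊥, (Q : Subgroup ↥V.ker).map V.ker.subtype, V.ker, ⊤], rfl, rfl, ?_, ?_, ?_⟩
      · rw [Fin.monotone_iff_le_succ]
        intro i
        fin_cases i
        · exact bot_le
        · exact Subgroup.map_subtype_le _
        · exact le_top
      · intro i
        fin_cases i
        · exact Subgroup.normal_bot
        · exact hQ'n
        · exact (inferInstance : V.ker.Normal)
        · exact Subgroup.normal_top
      · intro i
        fin_cases i
        · left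
          obtain ⟨a, ha⟩ := IsPGroup.iff_card.1 Q.isPGroup'
          refine ⟨a, ?_⟩
          show (⊥ : Subgroup G).relIndex ((Q : Subgroup ↥V.ker).map V.ker.subtype) = p ^ a
          rw [Subgroup.relIndex_bot_left,
            Subgroup.card_map_of_injective V.ker.subtype_injective, ha]
        · right
          show (((Q : Subgroup ↥V.ker).map V.ker.subtype).relIndex V.ker).Coprime p
          have h1 : ((Q : Subgroup ↥V.ker).map V.ker.subtype).relIndex V.ker
              = (Q : Subgroup ↥V.ker).index := by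
            rw [Subgroup.relIndex, Subgroup.subgroupOf,
              Subgroup.comap_map_eq_self_of_injective (Subgroup.subtype_injective _)]
          rw [h1]
          exact ((Nat.Prime.coprime_iff_not_dvd hp).2 Q.not_dvd_index).symm
        · left
          obtain ⟨j, hj⟩ := hMindex
          refine ⟨j, ?_⟩
          show V.ker.relIndex ⊤ = p ^ j
          rw [Subgroup.relIndex_top_right, hj]
    have h5 := Cfsg.Agent.S4468.result χ hχ hfaith n rfl p hp hsolv (by omega) P hP
    omega

end Main

end Cfsg.Agent.Lib.Helper82.FTN
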