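import Mathlib

/-!
# Class number of a Frobenius group (counting commuting pairs)
-/

set_option autoImplicit false

namespace Cfsg.Agent.Lib.Helper82

open scoped BigOperators

/-- number of elements commuting with `x` -/
noncomputable def commCount {X : Type*} [Group X] (x : X) : ℕ :=
  Nat.card {y : X // Commute x y}

theorem sum_commCount {X : Type*} [Group X] [Fintype X] :
    ∑ x : X, commCount x = Nat.card (ConjClasses X) * Nat.card X := by
  classical
  rw [← card_comm_eq_card_conjClasses_mul_card]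
  rw [Nat.card_congr (Equiv.subtypeProdEquivSigmaSubtype (fun x y : X => Commute x y))]
  rw [Nat.card_sigma]
  rfl

theorem commCount_one {X : Type*} [Group X] : commCount (1 : X) = Nat.card X := by
  unfold commCount
  exact Nat.card_congr (Equiv.subtypeUnivEquiv (fun y => Commute.one_left y))

theorem commCount_conj {X : Type*} [Group X] (x c : X) :
    commCount (c⁻¹ * x * c) = commCount x := by
  unfold commCount
  refine Nat.card_congr
    { toFun := fun y => ⟨c * y.1 * c⁻¹, ?_⟩
      invFun := fun y => ⟨c⁻¹ * y.1 * c, ?_⟩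
      left_inv := fun y => by ext; simp [mul_assoc]
      right_inv := fun y => by ext; simp [mul_assoc] }
  · have h := y.2
    unfold Commute SemiconjBy at h ⊢
    have : x * (c * y.1 * c⁻¹) = c * ((c⁻¹ * x * c) * y.1) * c⁻¹ := by group
    rw [this, h]; group
  · have h := y.2
    unfold Commute SemiconjBy at h ⊢
    have : c⁻¹ * x * c * (c⁻¹ * y.1 * c) = c⁻¹ * (x * y.1) * c := by group
    rw [this, h]; group

/-- if the centralizer of `x` lies in the subgroup `S ∋ x` then the counts agree -/
theorem commCount_subgroup {X : Type*} [Group X] (S : Subgroup X) (x : S)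
    (h : ∀ y : X, Commute (x : X) y → y ∈ S) : commCount (x : X) = commCount x := by
  unfold commCount
  refine Nat.card_congr
    { toFun := fun y => ⟨⟨y.1, h y.1 y.2⟩, ?_⟩
      invFun := fun y => ⟨y.1.1, ?_⟩
      left_inv := fun y => rfl
      right_inv := fun y => rfl }
  · have := y.2
    unfold Commute SemiconjBy at this ⊢
    exact Subtype.ext this
  · have := y.2
    unfold Commute SemiconjBy at this ⊢
    exact congrArg Subtype.val this

theorem frobenius_class_number {G : Type*} [Group G] [Finite G] (K H : Subgroup G) [K.Normal]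
    (hKH : K ⊓ H = ⊥) (hKH' : K ⊔ H = ⊤)
    (hfpf : ∀ h ∈ H, h ≠ 1 → ∀ k ∈ K, h * k = k * h → k = 1) :
    Nat.card H * Nat.card (ConjClasses G) + 1 =
      Nat.card H * Nat.card (ConjClasses H) + Nat.card (ConjClasses K) := by
  classical
  have := Fintype.ofFinite G
  -- the bijection K × H → G
  have hinj : Function.Injective (fun p : K × H => (p.1 : G) * (p.2 : G)) := by
    rintro ⟨k1, h1⟩ ⟨k2, h2⟩ he
    simp only at he
    have h3 : (k2 : G)⁻¹ * k1 = h2 * (h1 : G)⁻¹ := by
      have : (k2 : G)⁻¹ * (k1 * h1) * (h1 : G)⁻¹ = (k2 : G)⁻¹ * (k2 * h2) * (h1 : G)⁻¹ := by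
        rw [he]
      simpa [mul_assoc] using this
    have h4 : (k2 : G)⁻¹ * k1 ∈ K ⊓ H :=
      ⟨K.mul_mem (K.inv_mem k2.2) k1.2, h3 ▸ H.mul_mem h2.2 (H.inv_mem h1.2)⟩
    rw [hKH, Subgroup.mem_bot] at h4
    have h5 : (k1 : G) = k2 := by
      have := congrArg (fun t => (k2 : G) * t) h4
      simpa using this
    have h6 : (h1 : G) = h2 := by
      rw [h5] at he
      exact mul_left_cancel he
    exact Prod.ext (Subtype.ext h5) (Subtype.ext h6)
  have hsurj : Function.Surjective (fun p : K × H => (p.1 : G) * (p.2 : G)) := by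
    intro g
    have hg : g ∈ (↑(K ⊔ H) : Set G) := by rw [hKH']; trivial
    rw [Subgroup.normal_mul] at hg
    obtain ⟨k, hk, h, hh, rfl⟩ := hg
    exact ⟨(⟨k, hk⟩, ⟨h, hh⟩), rfl⟩
  have hbij : Function.Bijective (fun p : K × H => (p.1 : G) * (p.2 : G)) := ⟨hinj, hsurj⟩
  -- centralizers of non-identity elements of H lie in H
  have hCH : ∀ h : H, h ≠ 1 → ∀ y : G, Commute (h : G) y → y ∈ H := by
    intro h hne y hy
    obtain ⟨⟨k', h'⟩, rfl⟩ := hsurj y
    simp only at hy ⊢
    unfold Commute SemiconjBy at hy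
    -- h * (k' * h') = (k' * h') * h
    have e1 : ((h : G) * k' * (h : G)⁻¹) * ((h : G) * h') = (k' : G) * ((h' : G) * h) := by
      rw [← mul_assoc (k' : G), ← hy]; group
    have e2 := hinj (a₁ := (⟨(h : G) * k' * (h : G)⁻¹, ‹K.Normal›.conj_mem _ k'.2 _⟩, h * h'))
      (a₂ := (k', h' * h)) (by simpa using e1)
    have e3 : (h : G) * k' * (h : G)⁻¹ = k' := congrArg (fun p => (p.1 : G)) e2
    have e4 : (h : G) * k' = k' * h := by
      have := congrArg (fun t => t * (h : G)) e3
      simpa [mul_assoc] using this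
    have e5 := hfpf h h.2 (fun hh => hne (Subtype.ext hh)) k' k'.2 e4
    rw [e5, one_mul]
    exact h'.2
  -- every element of the coset K h (h ≠ 1) is conjugate to h by an element of K
  have hconj : ∀ h : H, h ≠ 1 → ∀ k : K, ∃ c : K, (c : G)⁻¹ * h * c = k * h := by
    intro h hne k
    have hφ : Function.Injective
        (fun c : K => (⟨(c : G)⁻¹ * ((h : G) * c * (h : G)⁻¹),
          K.mul_mem (K.inv_mem c.2) (‹K.Normal›.conj_mem _ c.2 _)⟩ : K)) := by
      intro c1 c2 he
      have he' : (c1 : G)⁻¹ * ((h : G) * c1 * (h : G)⁻¹) = (c2 : G)⁻¹ * ((h : G) * c2 * (h : G)⁻¹) :=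
        congrArg Subtype.val he
      have e1 : (h : G) * (c1 * (c2 : G)⁻¹) = (c1 * (c2 : G)⁻¹) * h := by
        have := congrArg (fun t => (c1 : G) * t * (h : G) * (c2 : G)⁻¹) he'
        simp only [mul_assoc, mul_inv_cancel_left, inv_mul_cancel, mul_one] at this
        have h2 : (h : G) * (c1 * (c2 : G)⁻¹) = (c1 : G) * ((c2 : G)⁻¹ * ((h : G) * (c2 * (c2 : G)⁻¹))) := by
          rw [this]
        simpa [mul_assoc] using h2
      have e2 := hfpf h h.2 (fun hh => hne (Subtype.ext hh)) _ (K.mul_mem c1.2 (K.inv_mem c2.2)) e1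
      exact Subtype.ext (mul_inv_eq_one.mp e2)
    obtain ⟨c, hc⟩ := (Finite.injective_iff_surjective.mp hφ) k
    refine ⟨c, ?_⟩
    have hc' : (c : G)⁻¹ * ((h : G) * c * (h : G)⁻¹) = k := congrArg Subtype.val hc
    rw [← hc']; group
  -- centralizers of non-identity elements of K lie in K
  have hCK : ∀ k : K, k ≠ 1 → ∀ y : G, Commute (k : G) y → y ∈ K := by
    intro k hne y hy
    obtain ⟨⟨k', h'⟩, rfl⟩ := hsurj y
    simp only at hy ⊢
    by_cases hh : h' = 1
    · rw [hh]; simp
    exfalso
    obtain ⟨c, hc⟩ := hconj h' hh k'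
    rw [← hc] at hy
    -- k commutes with c⁻¹ h' c, so c k c⁻¹ commutes with h'
    unfold Commute SemiconjBy at hy
    have e1 : (h' : G) * ((c : G) * k * (c : G)⁻¹) = ((c : G) * k * (c : G)⁻¹) * h' := by
      have := congrArg (fun t => (c : G) * t * (c : G)⁻¹) hy
      simp only [mul_assoc, mul_inv_cancel_left, mul_inv_cancel, mul_one] at this
      simpa [mul_assoc] using this.symm
    have e2 := hfpf h' h'.2 (fun h0 => hh (Subtype.ext h0)) _ (‹K.Normal›.conj_mem _ k.2 _) e1
    have e3 : (k : G) = 1 := by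
      have := congrArg (fun t => (c : G)⁻¹ * t * (c : G)) e2
      simpa [mul_assoc] using this
    exact hne (Subtype.ext e3)
  -- values of the commuting count
  have hval : ∀ (k : K) (h : H), h ≠ 1 → commCount ((k : G) * h) = commCount h := by
    intro k h hne
    obtain ⟨c, hc⟩ := hconj h hne k
    rw [← hc, commCount_conj]
    exact commCount_subgroup H h (hCH h hne)
  have hvalK : ∀ k : K, k ≠ 1 → commCount (k : G) = commCount k := fun k hne =>
    commCount_subgroup K k (hCK k hne)
  -- the count
  have hG := sum_commCount (X := G)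
  have hK := sum_commCount (X := K)
  have hH := sum_commCount (X := H)
  have hcardG : Nat.card G = Nat.card K * Nat.card H := by
    rw [← Nat.card_prod]; exact (Nat.card_congr (Equiv.ofBijective _ hbij)).symm
  have hsum : ∑ x : G, commCount x = ∑ p : K × H, commCount ((p.1 : G) * (p.2 : G)) :=
    (Fintype.sum_bijective _ hbij _ _ (fun _ => rfl)).symm
  rw [hsum, Fintype.sum_prod_type] at hG
  -- inner sums
  have hinner : ∀ k : K, ∑ h : H, commCount ((k : G) * (h : G)) =
      commCount (k : G) + (Nat.card (ConjClasses H) * Nat.card H - Nat.card H) := by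
    intro k
    rw [← hH, ← Finset.add_sum_erase Finset.univ _ (Finset.mem_univ (1 : H))]
    rw [← Finset.add_sum_erase Finset.univ (fun h : H => commCount h) (Finset.mem_univ (1 : H))]
    rw [commCount_one, Nat.add_sub_cancel_left]
    congr 1
    · simp
    · refine Finset.sum_congr rfl (fun h hh => ?_)
      exact hval k h (Finset.ne_of_mem_erase hh)
  rw [Finset.sum_congr rfl (fun k _ => hinner k), Finset.sum_add_distrib, Finset.sum_const,
    Finset.card_univ, smul_eq_mul, ← Nat.card_eq_fintype_card] at hG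
  have houter : ∑ k : K, commCount (k : G) =
      Nat.card G + (Nat.card (ConjClasses K) * Nat.card K - Nat.card K) := by
    rw [← hK, ← Finset.add_sum_erase Finset.univ _ (Finset.mem_univ (1 : K))]
    rw [← Finset.add_sum_erase Finset.univ (fun k : K => commCount k) (Finset.mem_univ (1 : K))]
    rw [commCount_one, Nat.add_sub_cancel_left]
    congr 1
    · simp [commCount_one]
    · refine Finset.sum_congr rfl (fun k hk => ?_)
      exact hvalK k (Finset.ne_of_mem_erase hk)
  rw [houter, hcardG] at hG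
  have hKpos : 0 < Nat.card K := Nat.card_pos
  have hHpos : 0 < Nat.card H := Nat.card_pos
  have hkK : 0 < Nat.card (ConjClasses K) := Nat.card_pos
  have hkH : 0 < Nat.card (ConjClasses H) := Nat.card_pos
  -- arithmetic
  set a := Nat.card K
  set b := Nat.card H
  set kG := Nat.card (ConjClasses G)
  set kH := Nat.card (ConjClasses H)
  set kK := Nat.card (ConjClasses K)
  have h1 : kK * a - a = (kK - 1) * a := by rw [Nat.sub_mul, one_mul]
  have h2 : kH * b - b = (kH - 1) * b := by rw [Nat.sub_mul, one_mul]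
  rw [h1, h2] at hG
  obtain ⟨kK', hkK'⟩ : ∃ n, kK = n + 1 := ⟨kK - 1, by omega⟩
  obtain ⟨kH', hkH'⟩ : ∃ n, kH = n + 1 := ⟨kH - 1, by omega⟩
  rw [hkK', hkH'] at hG ⊢
  simp only [Nat.add_sub_cancel] at hG
  have h3 : a * (b * kG + 1) = a * (b * (kH' + 1) + (kK' + 1)) := by
    have : a * (b * kG + 1) = kG * (a * b) + a := by ring
    rw [this, ← hG]; ring
  exact Nat.eq_of_mul_eq_mul_left hKpos h3

end Cfsg.Agent.Lib.Helper82
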