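import Mathlib
import Cfsg.Prelude.Def_Characters
import Cfsg.Agent.S0154
import Cfsg.Agent.Lib.Helper3.Burnside
import Cfsg.Agent.Lib.Helper75.CliffordCorr
import Cfsg.Agent.Lib.Helper79.Linear
import Cfsg.Agent.Lib.Helper81.CharCore
import Cfsg.Agent.Lib.Helper82.Ito

/-!
# Groups all of whose irreducible characters have `p`-power degree

They are exactly the groups with an abelian normal `p`-complement.
-/

set_option autoImplicit false
set_option linter.style.haveILetI false

namespace Cfsg.Agent.Lib.Helper82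

open Cfsg.Agent.Lib.Helper75
open scoped commutatorElement

universe u

/-- In a finite commutative group there is a subgroup of order prime to `p` and `p`-power
index. -/
theorem exists_coprime_subgroup_of_comm {B : Type*} [Group B] [Finite B]
    (hcomm : ∀ a b : B, a * b = b * a) (p : ℕ) [hp : Fact p.Prime] :
    ∃ H : Subgroup B, Nat.Coprime (Nat.card H) p ∧ (∃ k : ℕ, H.index = p ^ k) ∧
      (p ∣ Nat.card B → H ≠ ⊤) := by
  obtain ⟨P⟩ : Nonempty (Sylow p B) := inferInstance
  haveI : (P : Subgroup B).Normal :=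
    ⟨fun n hn g => by rw [hcomm g n, mul_inv_cancel_right]; exact hn⟩
  obtain ⟨H, hH⟩ := Subgroup.exists_right_complement'_of_coprime P.card_coprime_index
  have hidx : H.index = Nat.card (P : Subgroup B) := hH.index_eq_card
  obtain ⟨n, hn⟩ := IsPGroup.iff_card.1 P.isPGroup'
  have hcardH : Nat.card H = (P : Subgroup B).index := hH.symm.index_eq_card.symm
  refine ⟨H, ?_, ⟨n, hidx.trans hn⟩, ?_⟩
  · rw [hcardH]
    exact ((Nat.Prime.coprime_iff_not_dvd hp.out).2 P.not_dvd_index).symm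
  · intro hdvd hHtop
    rw [hHtop, Subgroup.index_top] at hidx
    have h1 : p ∣ Nat.card (P : Subgroup B) := P.dvd_card_of_dvd_card hdvd
    rw [← hidx] at h1
    exact hp.out.one_lt.ne' (Nat.dvd_one.1 h1)

/-- If all irreducible characters have `p`-power degree and the group is not abelian, then
`p` divides the index of the commutator subgroup. -/
theorem dvd_index_commutator_of_ppow {G : Type u} [Group G] [Finite G] (p : ℕ) (hp : p.Prime)
    (hdeg : ∀ χ : Cfsg.IrrCharacter G, ∃ k : ℕ, (χ : G → ℂ) 1 = (p : ℂ) ^ k)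
    (hne : commutator G ≠ ⊥) : p ∣ (commutator G).index := by
  classical
  haveI : Fintype G := Fintype.ofFinite G
  haveI : Fintype (Cfsg.IrrCharacter G) := Fintype.ofFinite _
  have hp0 : (p : ℂ) ≠ 0 := by exact_mod_cast hp.ne_zero
  obtain ⟨x, hx1⟩ := (Subgroup.ne_bot_iff_exists_ne_one).1 hne
  have hx1' : (x : G) ≠ 1 := fun h => hx1 (Subtype.ext h)
  have hreg := Cfsg.Agent.Lib.Helper81.irr_regular (x : G)
  rw [if_neg hx1', ← Finset.sum_filter_add_sum_filter_not Finset.univ
    (fun χ : Cfsg.IrrCharacter G => (χ : G → ℂ) 1 = 1)] at hreg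
  have h1 : ∑ χ ∈ Finset.univ.filter (fun χ : Cfsg.IrrCharacter G => (χ : G → ℂ) 1 = 1),
      χ.1 1 * χ.1 (x : G) = ((commutator G).index : ℂ) := by
    have h : ∀ χ ∈ Finset.univ.filter (fun χ : Cfsg.IrrCharacter G => (χ : G → ℂ) 1 = 1),
        χ.1 1 * χ.1 (x : G) = 1 := by
      intro χ hχ
      have hχ1 := (Finset.mem_filter.1 hχ).2
      rw [hχ1, one_mul]
      exact Cfsg.Agent.Lib.Helper79.linear_irr_commutator χ.2 hχ1 x.2
    rw [Finset.sum_congr rfl h, ← Cfsg.Agent.S0154.result, Nat.card_eq_fintype_card,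
      Fintype.card_subtype]
    simp
  have h2 : ∃ α : ℂ, IsIntegral ℤ α ∧
      ∑ χ ∈ Finset.univ.filter (fun χ : Cfsg.IrrCharacter G => ¬ (χ : G → ℂ) 1 = 1),
        χ.1 1 * χ.1 (x : G) = p * α := by
    refine ⟨∑ χ ∈ Finset.univ.filter (fun χ : Cfsg.IrrCharacter G => ¬ (χ : G → ℂ) 1 = 1),
        (χ.1 1 / p) * χ.1 (x : G), ?_, ?_⟩
    · refine IsIntegral.sum _ (fun χ hχ => IsIntegral.mul ?_ ?_)
      · obtain ⟨k, hk⟩ := hdeg χ
        have hk0 : k ≠ 0 := by
          rintro rfl
          exact (Finset.mem_filter.1 hχ).2 (by simpa using hk)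
        obtain ⟨j, rfl⟩ := Nat.exists_eq_succ_of_ne_zero hk0
        have h3 : χ.1 1 / (p : ℂ) = (p : ℂ) ^ j := by
          rw [hk, pow_succ, mul_div_assoc, div_self hp0, mul_one]
        rw [h3]
        exact (isIntegral_natCast (R := ℤ) (B := ℂ) (a := p)).pow j
      · exact Cfsg.Agent.Lib.Helper80.isIntegral_char_val
          (Cfsg.Agent.Lib.Helper80.isCharacter_of_isIrrCharacter χ.2) _
    · rw [Finset.mul_sum]
      refine Finset.sum_congr rfl (fun χ _ => ?_)
      field_simp
  obtain ⟨α, hα, h2⟩ := h2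
  rw [h1, h2] at hreg
  have h3 := Cfsg.Agent.Lib.Helper3.int_dvd_of_isIntegral ((commutator G).index : ℤ) p hp.ne_zero
    (-α) hα.neg (by push_cast; linear_combination hreg)
  exact_mod_cast h3

/-- `p`-power degrees pass to normal subgroups. -/
theorem ppow_degrees_of_normal {G : Type u} [Group G] [Finite G] (p : ℕ) (hp : p.Prime)
    (hdeg : ∀ χ : Cfsg.IrrCharacter G, ∃ k : ℕ, (χ : G → ℂ) 1 = (p : ℂ) ^ k)
    (K : Subgroup G) [K.Normal] (ψ : Cfsg.IrrCharacter ↥K) :
    ∃ k : ℕ, (ψ : ↥K → ℂ) 1 = (p : ℂ) ^ k := by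
  classical
  haveI : Fintype G := Fintype.ofFinite G
  haveI : Fintype ↥K := Fintype.ofFinite _
  haveI : Fintype (Cfsg.IrrCharacter G) := Fintype.ofFinite _
  have hψch := Cfsg.Agent.Lib.Helper3.isCharacter_of_irr ψ.2
  have hψ1 := Cfsg.Agent.Lib.Helper80.char_one_eq_charDegree
    (Cfsg.Agent.Lib.Helper80.isCharacter_of_isIrrCharacter ψ.2)
  have hind := isCharacter_indFun K hψch
  obtain ⟨m, hm, hsum⟩ := char_eq_sum_irr hind
  have h1 : Cfsg.indFun K (ψ : ↥K → ℂ) 1 ≠ 0 := by
    rw [indFun_one]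
    refine mul_ne_zero (Nat.cast_ne_zero.2 ?_) (Cfsg.Agent.Lib.Helper80.char_one_ne_zero ψ.2)
    exact Subgroup.index_ne_zero_of_finite
  obtain ⟨χ, hχ⟩ : ∃ χ : Cfsg.IrrCharacter G, m χ ≠ 0 := by
    by_contra hcon
    have hall : ∀ χ, m χ = 0 := fun χ => by
      by_contra h
      exact hcon ⟨χ, h⟩
    have := congrFun hsum 1
    simp only [hall, Nat.cast_zero, zero_smul, Finset.sum_const_zero, Pi.zero_apply] at this
    exact h1 this
  have hχch := Cfsg.Agent.Lib.Helper3.isCharacter_of_irr χ.2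
  have hχc := Cfsg.Agent.Lib.Helper3.isClassFunction_of_isCharacter hχch
  have hcon : Cfsg.classInner (fun n : ↥K => (χ : G → ℂ) n) (ψ : ↥K → ℂ) ≠ 0 := by
    have h2 := hm χ
    rw [frobenius_reciprocity K _ hχc] at h2
    rw [classInner_conj_symm, h2]
    simpa using hχ
  have hone := res_one_eq K χ.2 ψ.2 hcon
  obtain ⟨e, he⟩ := classInner_char_nat (isCharacter_res K hχch) hψch
  obtain ⟨k, hk⟩ := hdeg χ
  rw [he, hk, hψ1] at hone
  have hnat : p ^ k = e * Nat.card (Constit K (χ : G → ℂ)) * Cfsg.charDegree (ψ : ↥K → ℂ) := by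
    exact_mod_cast hone
  have hdvd : Cfsg.charDegree (ψ : ↥K → ℂ) ∣ p ^ k := Dvd.intro_left _ hnat.symm
  obtain ⟨j, _, hj⟩ := (Nat.dvd_prime_pow hp).1 hdvd
  exact ⟨j, by rw [hψ1, hj]; push_cast; rfl⟩

/-- A normal subgroup `A` of the normal subgroup `K`, of order prime to `p` and `p`-power index
in `K`, is normal in the whole group. -/
theorem normal_map_of_coprime {G : Type u} [Group G] [Finite G] (p : ℕ)
    (K : Subgroup G) [hK : K.Normal] (A : Subgroup ↥K) [hA : A.Normal]
    (hcop : Nat.Coprime (Nat.card A) p) (k : ℕ) (hidx : A.index = p ^ k) :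
    (A.map K.subtype).Normal := by
  refine ⟨fun y hy g => ?_⟩
  obtain ⟨a, ha, rfl⟩ := hy
  have hmem : g * (a : G) * g⁻¹ ∈ K := hK.conj_mem a a.2 g
  refine ⟨⟨g * (a : G) * g⁻¹, hmem⟩, ?_, rfl⟩
  show (⟨g * (a : G) * g⁻¹, hmem⟩ : ↥K) ∈ A
  rw [← QuotientGroup.eq_one_iff (N := A)]
  have ha1 : (a : G) ^ Nat.card A = 1 := by
    have h0 : (⟨a, ha⟩ : ↥A) ^ Nat.card A = 1 := pow_card_eq_one'
    have h00 : (a : ↥K) ^ Nat.card A = 1 := by
      have h := congrArg Subtype.val h0
      rwa [Subgroup.coe_pow, Subgroup.coe_one] at h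
    have h := congrArg Subtype.val h00
    rwa [Subgroup.coe_pow, Subgroup.coe_one] at h
  have hy1 : (⟨g * (a : G) * g⁻¹, hmem⟩ : ↥K) ^ Nat.card A = 1 := by
    apply Subtype.ext
    rw [Subgroup.coe_pow]
    show (g * (a : G) * g⁻¹) ^ Nat.card A = 1
    rw [conj_pow, ha1, mul_one, mul_inv_cancel]
  have h1 : ((⟨g * (a : G) * g⁻¹, hmem⟩ : ↥K) : ↥K ⧸ A) ^ Nat.card A = 1 := by
    rw [← QuotientGroup.mk_pow, hy1, QuotientGroup.mk_one]
  have h2 : ((⟨g * (a : G) * g⁻¹, hmem⟩ : ↥K) : ↥K ⧸ A) ^ (p ^ k) = 1 := by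
    rw [← hidx, Subgroup.index_eq_card]
    exact pow_card_eq_one'
  have h3 : Nat.Coprime (Nat.card A) (p ^ k) := Nat.Coprime.pow_right k hcop
  have h6 := Nat.eq_one_of_dvd_coprimes h3 (orderOf_dvd_of_pow_eq_one h1)
    (orderOf_dvd_of_pow_eq_one h2)
  exact orderOf_eq_one_iff.1 h6

/-- A finite group all of whose irreducible characters have `p`-power degree has an abelian
normal subgroup of order prime to `p` and `p`-power index. -/
theorem exists_abelian_normal_of_ppow (p : ℕ) [hp : Fact p.Prime] :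
    ∀ (n : ℕ) (G : Type u) [Group G] [Finite G], Nat.card G = n →
      (∀ χ : Cfsg.IrrCharacter G, ∃ k : ℕ, (χ : G → ℂ) 1 = (p : ℂ) ^ k) →
      ∃ A : Subgroup G, A.Normal ∧ (∀ a ∈ A, ∀ b ∈ A, a * b = b * a) ∧
        Nat.Coprime (Nat.card A) p ∧ ∃ k : ℕ, A.index = p ^ k := by
  intro n
  induction n using Nat.strong_induction_on with
  | _ n ih =>
    intro G _ _ hn hdeg
    have hcommB : ∀ a b : G ⧸ commutator G, a * b = b * a := fun a b =>
      mul_comm (G := Abelianization G) a b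
    obtain ⟨H, hHcop, ⟨k, hHidx⟩, hHtop⟩ :=
      exists_coprime_subgroup_of_comm (B := G ⧸ commutator G) hcommB p
    haveI hHn : H.Normal :=
      ⟨fun n hn g => by rw [hcommB g n, mul_inv_cancel_right]; exact hn⟩
    set K : Subgroup G := H.comap (QuotientGroup.mk' (commutator G)) with hKdef
    haveI hKn : K.Normal := Subgroup.Normal.comap hHn _
    have hKidx : K.index = p ^ k := by
      rw [hKdef, Subgroup.index_comap_of_surjective H (QuotientGroup.mk'_surjective _), hHidx]
    by_cases hK : K = ⊤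
    · have hH : H = ⊤ := by
        rw [eq_top_iff]
        intro b _
        obtain ⟨g, rfl⟩ := QuotientGroup.mk'_surjective (commutator G) b
        have : g ∈ K := by rw [hK]; exact Subgroup.mem_top g
        exact this
      have hnd : ¬ p ∣ Nat.card (G ⧸ commutator G) := fun h => hHtop h hH
      have hcomm : commutator G = ⊥ := by
        by_contra hne
        exact hnd (dvd_index_commutator_of_ppow p hp.out hdeg hne)
      refine ⟨⊤, inferInstance, ?_, ?_, 0, by simp⟩
      · intro a _ b _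
        have h1 : ⁅a, b⁆ ∈ commutator G :=
          Subgroup.commutator_mem_commutator (Subgroup.mem_top a) (Subgroup.mem_top b)
        rw [hcomm, Subgroup.mem_bot, commutatorElement_eq_one_iff_mul_comm] at h1
        exact h1
      · rw [Subgroup.card_top]
        have h1 : Nat.card G = Nat.card (G ⧸ commutator G) := by
          have h2 := Subgroup.index_bot (G := G)
          rw [← hcomm] at h2
          exact h2.symm
        rw [h1]
        exact ((Nat.Prime.coprime_iff_not_dvd hp.out).2 hnd).symm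
    · have hlt : Nat.card ↥K < n := by
        rw [← hn]
        refine lt_of_le_of_ne (Subgroup.card_le_card_group K) (fun h => hK ?_)
        exact Subgroup.eq_top_of_card_eq K h
      obtain ⟨A, hAn, hAab, hAcop, j, hAidx⟩ := ih (Nat.card ↥K) hlt ↥K rfl
        (fun ψ => ppow_degrees_of_normal p hp.out hdeg K ψ)
      haveI := hAn
      refine ⟨A.map K.subtype, normal_map_of_coprime p K A hAcop j hAidx, ?_, ?_, j + k, ?_⟩
      · rintro _ ⟨a, ha, rfl⟩ _ ⟨b, hb, rfl⟩
        exact congrArg Subtype.val (hAab a ha b hb)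
      · rw [Subgroup.card_map_of_injective K.subtype_injective]
        exact hAcop
      · rw [Subgroup.index_map_subtype, hAidx, hKidx, ← pow_add]

end Cfsg.Agent.Lib.Helper82
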